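import Cfsg.Agent.Lib.Frobenius.CycShape.OfData
import Cfsg.Agent.Lib.Frobenius.Induce
import Cfsg.Agent.Lib.CharTheory.Orthogonality
import Cfsg.Agent.Lib.CharTheory.Ito

/-!
# The shape of the Frobenius group `C_{p ^ a} ⋊ C_e`
-/

set_option autoImplicit false
set_option linter.unusedSectionVars false
set_option linter.style.haveILetI false

noncomputable section

namespace CfsgLib.Frobenius.CycShape

open Cfsg Finset CfsgLib.Blocks
open scoped Classical

variable {F : Type*} [Group F] [Fintype F] {p : ℕ} [hp : Fact p.Prime] {a e : ℕ} [NeZero (p ^ a)]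

/-- The data of a group `Q ⋊ C_e` in coordinates. -/
structure FrobData (Q : Subgroup F) (q : F) (r : F → ZMod (p ^ a)) : Prop where
  normal : Q.Normal
  mem : ∀ x, x ∈ Q ↔ ∃ v : ZMod (p ^ a), x = q ^ v.val
  inj : ∀ v w : ZMod (p ^ a), q ^ v.val = q ^ w.val → v = w
  mul : ∀ v w : ZMod (p ^ a), q ^ (v + w).val = q ^ v.val * q ^ w.val
  conj : ∀ (f : F) (v : ZMod (p ^ a)), f * q ^ v.val * f⁻¹ = q ^ (r f * v).val
  r_mem : ∀ f, r f ∈ exps p a e
  r_one : ∀ f, r f = 1 ↔ f ∈ Q
  r_surj : ∀ t ∈ exps p a e, ∃ f, r f = t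
  r_mul : ∀ f g, r (f * g) = r f * r g

theorem exists_frobData (ha : a ≠ 0) (he : e ∣ p - 1) (Q : Subgroup F) (hQ : IsCyclic Q)
    (hQcard : Nat.card Q = p ^ a) (hF : Nat.card F = p ^ a * e)
    (hQC : Subgroup.centralizer (Q : Set F) = Q) :
    ∃ q r, FrobData (e := e) (p := p) (a := a) Q q r := by
  have hidx : Q.index = e := by
    have h := Q.card_mul_index
    rw [hQcard, hF] at h
    exact Nat.eq_of_mul_eq_mul_left (pow_pos hp.out.pos a) h
  have hlt : e < p := by
    have := Nat.le_of_dvd (by have := hp.out.two_le; omega) he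
    have := hp.out.two_le
    omega
  have hcop : ¬ p ∣ e := fun h => absurd (Nat.le_of_dvd (e_pos he) h) (by omega)
  have hQp : IsPGroup p Q := IsPGroup.of_card hQcard
  set S : Sylow p F := hQp.toSylow (by rw [hidx]; exact hcop) with hS
  have hSQ : (S : Subgroup F) = Q := rfl
  haveI hn : Q.Normal := by
    have hd : Nat.card (Sylow p F) ∣ e := hidx ▸ hSQ ▸ S.card_dvd_index
    have hm : Nat.card (Sylow p F) ≡ 1 [MOD p] := card_sylow_modEq_one p F
    have h1 : Nat.card (Sylow p F) = 1 := by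
      have hle := Nat.le_of_dvd (e_pos he) hd
      rw [Nat.ModEq, Nat.mod_eq_of_lt (by omega), Nat.mod_eq_of_lt hp.out.one_lt] at hm
      exact hm
    haveI : Subsingleton (Sylow p F) := (Nat.card_eq_one_iff_unique.1 h1).1
    rw [← hSQ]
    exact Sylow.normal_of_subsingleton S
  obtain ⟨d, hord, hlog⟩ := exists_coord (p := p) (a := a) hQ hQcard
  have hord' : orderOf (d : F) = p ^ a := by rw [Subgroup.orderOf_coe, hord]
  have hmem : ∀ x, x ∈ Q ↔ ∃ v : ZMod (p ^ a), x = (d : F) ^ v.val := fun x => ⟨fun hx => by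
    obtain ⟨v, hv⟩ := hlog ⟨x, hx⟩
    exact ⟨v, congrArg Subtype.val hv⟩, fun ⟨v, hv⟩ => hv ▸ Q.pow_mem d.2 _⟩
  have hinj : ∀ v w : ZMod (p ^ a), (d : F) ^ v.val = (d : F) ^ w.val → v = w := fun v w h => by
    refine ZMod.val_injective _ (pow_injOn_Iio_orderOf ?_ ?_ h) <;>
      simp [hord', ZMod.val_lt]
  have hcast : ∀ n : ℕ, (d : F) ^ (n : ZMod (p ^ a)).val = (d : F) ^ n := fun n => by
    rw [ZMod.val_natCast, ← hord', pow_mod_orderOf]
  have hmul : ∀ v w : ZMod (p ^ a), (d : F) ^ (v + w).val = (d : F) ^ v.val * (d : F) ^ w.val :=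
    fun v w => by rw [← pow_add, ← hcast (v.val + w.val), Nat.cast_add, ZMod.natCast_zmod_val,
      ZMod.natCast_zmod_val]
  have hr : ∀ f : F, ∃ t : ZMod (p ^ a), f * (d : F) * f⁻¹ = (d : F) ^ t.val := fun f =>
    (hmem _).1 (hn.conj_mem _ d.2 f)
  choose r hr using hr
  have hconj : ∀ (f : F) (v : ZMod (p ^ a)),
      f * (d : F) ^ v.val * f⁻¹ = (d : F) ^ (r f * v).val := fun f v => by
    rw [← conj_pow, hr, ← pow_mul, ← hcast ((r f).val * v.val), Nat.cast_mul,
      ZMod.natCast_zmod_val, ZMod.natCast_zmod_val]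
  have hd1 : (d : F) ^ (1 : ZMod (p ^ a)).val = (d : F) := by
    rw [← Nat.cast_one, hcast, pow_one]
  have hrmul : ∀ f g, r (f * g) = r f * r g := fun f g => hinj _ _ (by
    rw [← hr, ← hconj, ← hr]; group)
  have hrone : ∀ f, r f = 1 ↔ f ∈ Q := fun f => by
    constructor
    · intro h
      rw [← hQC, Subgroup.mem_centralizer_iff]
      intro x hx
      obtain ⟨v, rfl⟩ := (hmem x).1 hx
      have h2 := hconj f v
      rw [h, one_mul] at h2
      calc (d : F) ^ v.val * f = f * (d : F) ^ v.val * f⁻¹ * f := by rw [h2]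
        _ = f * (d : F) ^ v.val := by group
    · intro hf
      refine hinj _ _ ?_
      rw [← hr, hd1]
      rw [← hQC] at hf
      rw [← Subgroup.mem_centralizer_iff.1 hf d d.2, mul_inv_cancel_right]
  have hrmem : ∀ f, r f ∈ exps p a e := fun f => by
    rw [mem_exps]
    have hpow : ∀ n : ℕ, r (f ^ n) = r f ^ n := fun n => by
      induction n with
      | zero => rw [pow_zero, pow_zero, (hrone 1).2 Q.one_mem]
      | succ n ih => rw [pow_succ, pow_succ, hrmul, ih]
    rw [← hpow, hrone, ← hidx]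
    exact Q.pow_index_mem f
  refine ⟨d, r, ⟨hn, hmem, hinj, hmul, hconj, hrmem, hrone, ?_, hrmul⟩⟩
  have hcard : ((Finset.univ : Finset F).image r).card = e := by
    have hfib : ∀ f g : F, r f = r g ↔ f⁻¹ * g ∈ Q := fun f g => by
      have h1 : r f * r f⁻¹ = 1 := by rw [← hrmul, mul_inv_cancel, (hrone 1).2 Q.one_mem]
      rw [← hrone, hrmul]
      constructor
      · intro h; rw [← h, mul_comm, h1]
      · intro h
        calc r f = r f * (r f⁻¹ * r g) := by rw [h, mul_one]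
          _ = r g := by rw [← mul_assoc, h1, one_mul]
    rw [← hidx]
    show _ = Nat.card (F ⧸ Q)
    rw [Nat.card_eq_fintype_card, ← Finset.card_univ]
    refine Finset.card_bij (fun t ht => ((mem_image.1 ht).choose : F ⧸ Q)) (fun _ _ => mem_univ _)
      ?_ ?_
    · intro t ht t' ht' h
      have h1 := (mem_image.1 ht).choose_spec.2
      have h2 := (mem_image.1 ht').choose_spec.2
      rw [← h1, ← h2, hfib]
      exact QuotientGroup.eq.1 h
    · intro x _
      obtain ⟨f, rfl⟩ := QuotientGroup.mk_surjective x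
      have ht : r f ∈ (Finset.univ : Finset F).image r := mem_image_of_mem r (mem_univ f)
      exact ⟨r f, ht, QuotientGroup.eq.2 ((hfib _ _).1 (mem_image.1 ht).choose_spec.2)⟩
  intro t ht
  have heq : (Finset.univ : Finset F).image r = exps p a e :=
    Finset.eq_of_subset_of_card_le (fun t ht => by
      obtain ⟨f, -, rfl⟩ := mem_image.1 ht; exact hrmem f) (by rw [card_exps ha he, hcard])
  rw [← heq] at ht
  obtain ⟨f, -, hf⟩ := mem_image.1 ht
  exact ⟨f, hf⟩

variable {Q : Subgroup F} {q : F} {r : F → ZMod (p ^ a)} (D : FrobData (e := e) Q q r)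
include D

theorem FrobData.sum_r (g : ZMod (p ^ a) → ℂ) :
    ∑ f : F, g (r f) = (Nat.card Q : ℂ) * ∑ t ∈ exps p a e, g t := by
  rw [← Finset.sum_fiberwise_of_maps_to (t := exps p a e) (g := r) (fun f _ => D.r_mem f),
    Finset.mul_sum]
  refine Finset.sum_congr rfl fun t ht => ?_
  rw [Finset.sum_congr rfl fun f hf => by rw [(mem_filter.1 hf).2], Finset.sum_const, nsmul_eq_mul]
  congr 2
  obtain ⟨f₀, hf₀⟩ := D.r_surj t ht
  rw [Nat.card_eq_fintype_card, ← Finset.card_univ]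
  have h1 : r f₀ * r f₀⁻¹ = 1 := by rw [← D.r_mul, mul_inv_cancel, (D.r_one 1).2 Q.one_mem]
  refine Finset.card_bij' (fun f hf => (⟨f₀⁻¹ * f, (D.r_one _).1 (by
      rw [D.r_mul, (mem_filter.1 hf).2, ← hf₀, mul_comm, h1])⟩ : Q))
    (fun x _ => f₀ * (x : F)) (fun _ _ => mem_univ _) (fun x _ => mem_filter.2 ⟨mem_univ _, by
      rw [D.r_mul, (D.r_one _).2 x.2, mul_one, hf₀]⟩) (fun f _ => by simp) (fun x _ => by
      ext; simp)

/-- The coordinate of an element of `Q`. -/
def FrobData.log (x : Q) : ZMod (p ^ a) := ((D.mem x).1 x.2).choose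

theorem FrobData.pow_log (x : Q) : q ^ (D.log x).val = (x : F) :=
  ((D.mem x).1 x.2).choose_spec.symm

theorem FrobData.log_mk (v : ZMod (p ^ a)) (h : q ^ v.val ∈ Q) : D.log ⟨q ^ v.val, h⟩ = v :=
  D.inj _ _ (D.pow_log _)

theorem FrobData.sum_Q (g : ZMod (p ^ a) → ℂ) : ∑ x : Q, g (D.log x) = ∑ v, g v := by
  refine Finset.sum_bij' (fun x _ => D.log x)
    (fun v _ => (⟨q ^ v.val, (D.mem _).2 ⟨v, rfl⟩⟩ : Q)) (fun _ _ => mem_univ _)
    (fun _ _ => mem_univ _) (fun x _ => Subtype.ext (D.pow_log x))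
    (fun v _ => D.log_mk v _) (fun _ _ => rfl)

/-- A linear character of `Q`. -/
def FrobData.linHom (k : ZMod (p ^ a)) : Q →* ℂˣ where
  toFun x := Units.mk0 (ZMod.stdAddChar (k * D.log x)) (by
    intro h
    have h1 : ZMod.stdAddChar (k * D.log x + -(k * D.log x)) = (1 : ℂ) := by
      rw [add_neg_cancel, AddChar.map_zero_eq_one]
    rw [AddChar.map_add_eq_mul, h, zero_mul] at h1
    exact zero_ne_one h1)
  map_one' := Units.ext (by
    have : D.log 1 = 0 := D.inj _ _ (by rw [D.pow_log, ZMod.val_zero, pow_zero]; rfl)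
    rw [Units.val_mk0, this, mul_zero, AddChar.map_zero_eq_one, Units.val_one])
  map_mul' x y := Units.ext (by
    have : D.log (x * y) = D.log x + D.log y :=
      D.inj _ _ (by rw [D.mul, D.pow_log, D.pow_log, D.pow_log]; rfl)
    simp [this, mul_add, AddChar.map_add_eq_mul])

/-- The induced characters. -/
def FrobData.psi (k : ZMod (p ^ a)) : F → ℂ := indFun Q fun x => ((D.linHom k x : ℂˣ) : ℂ)

theorem FrobData.psi_of_not_mem (k : ZMod (p ^ a)) {g : F} (hg : g ∉ Q) : D.psi k g = 0 :=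
  haveI := D.normal
  indFun_eq_zero_of_not_mem Q _ hg

theorem FrobData.psi_coe (k v : ZMod (p ^ a)) : D.psi k (q ^ v.val) = orb p a e (k * v) := by
  have h1 : ∀ f : F, extendByZero Q (fun x => ((D.linHom k x : ℂˣ) : ℂ)) (f * q ^ v.val * f⁻¹) =
      ZMod.stdAddChar (r f * (k * v)) := by
    intro f
    rw [D.conj, extendByZero_of_mem Q _ ((D.mem _).2 ⟨_, rfl⟩)]
    show ZMod.stdAddChar (k * D.log _) = _
    rw [D.log_mk]
    congr 1; ring
  rw [FrobData.psi, indFun, Fintype.sum_equiv (Equiv.inv F) _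
    (fun f => ZMod.stdAddChar (r f * (k * v))) (fun f => by
      rw [← h1]; simp), D.sum_r (fun t => ZMod.stdAddChar (t * (k * v))), ← mul_assoc,
    inv_mul_cancel₀ (Nat.cast_ne_zero.2 Nat.card_pos.ne'), one_mul, orb]

theorem FrobData.isCharacter_psi (k : ZMod (p ^ a)) : IsCharacter F (D.psi k) :=
  isCharacter_indFun Q _ (CharTheory.IsIrrCharacter.isCharacter
    (CharTheory.isIrrCharacter_linear (D.linHom k)))

theorem FrobData.inner_psi (k : ZMod (p ^ a)) (φ : F → ℂ) (hφ : IsClassFunction F φ) :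
    classInner (D.psi k) φ =
      (Nat.card Q : ℂ)⁻¹ * ∑ v, ZMod.stdAddChar (k * v) * (starRingEnd ℂ) (φ (q ^ v.val)) := by
  rw [FrobData.psi, classInner_indFun Q _ φ hφ, classInner, ← D.sum_Q]
  congr 1
  refine Finset.sum_congr rfl fun x _ => ?_
  rw [D.pow_log]
  rfl

theorem FrobData.card_Q : (Nat.card Q : ℂ) = (p : ℂ) ^ a := by
  have h := D.sum_Q (fun _ => (1 : ℂ))
  rw [Finset.sum_const, Finset.sum_const, Finset.card_univ, Finset.card_univ, ZMod.card,
    nsmul_eq_mul, nsmul_eq_mul, mul_one, mul_one] at h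
  rw [Nat.card_eq_fintype_card, h, Nat.cast_pow]

theorem FrobData.inner_psi_psi (k k' : ZMod (p ^ a)) :
    classInner (D.psi k) (D.psi k') = (((exps p a e).filter fun t => t * k' = k).card : ℂ) := by
  rw [D.inner_psi k _ (CharTheory.IsCharacter.isClassFunction (D.isCharacter_psi k'))]
  have : ∀ v, ZMod.stdAddChar (k * v) * (starRingEnd ℂ) (D.psi k' (q ^ v.val)) =
      ∑ t ∈ exps p a e, ZMod.stdAddChar (v * (k - t * k')) := by
    intro v
    rw [D.psi_coe, orb, map_sum, Finset.mul_sum]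
    refine Finset.sum_congr rfl fun t _ => ?_
    rw [← AddChar.map_neg_eq_conj, ← AddChar.map_add_eq_mul]
    congr 1; ring
  rw [Finset.sum_congr rfl fun v _ => this v, Finset.sum_comm]
  simp only [sum_stdAddChar, sub_eq_zero]
  rw [Finset.sum_ite, Finset.sum_const_zero, add_zero, Finset.sum_const, nsmul_eq_mul, D.card_Q,
    mul_comm, mul_assoc, mul_inv_cancel₀ (pow_ne_zero _ (Nat.cast_ne_zero.2 hp.out.ne_zero)),
    mul_one]
  congr 2
  exact Finset.filter_congr fun t _ => eq_comm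

theorem FrobData.isIrr_psi (he : e ∣ p - 1) {k : ZMod (p ^ a)} (hk : k ≠ 0) :
    IsIrrCharacter F (D.psi k) := by
  refine CharTheory.isIrrCharacter_of_norm_one
    (CharTheory.IsCharacter.isGeneralizedCharacter (D.isCharacter_psi k)) ?_ ?_
  · rw [D.inner_psi_psi, show (exps p a e).filter (fun t => t * k = k) = {1} from ?_,
      Finset.card_singleton, Nat.cast_one]
    ext t
    simp only [mem_filter, mem_singleton]
    exact ⟨fun h => eq_one_of_fix he h.1 hk h.2, fun h => by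
      subst h; exact ⟨one_mem_exps, one_mul k⟩⟩
  · rw [FrobData.psi, indFun_one, map_one, Units.val_one, mul_one]
    simp only [Complex.natCast_re, Nat.cast_pos]
    exact Nat.pos_of_ne_zero Q.index_ne_zero_of_finite

omit D in
/-- The shape of `C_{p ^ a} ⋊ C_e`. -/
theorem exists_shape_frobGroup {M : Ideal AlgInt} [M.IsPrime] (ha : a ≠ 0) (he : e ∣ p - 1)
    (Q : Subgroup F) (hQ : IsCyclic Q)
    (hQcard : Nat.card Q = p ^ a) (hF : Nat.card F = p ^ a * e)
    (hQC : Subgroup.centralizer (Q : Set F) = Q) :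
    ∃ T : Shape p a e M (Set.univ : Set (IrrCharacter F)),
      ∀ η : IrrCharacter F, (∃ x ∈ Q, (η : F → ℂ) x ≠ (η : F → ℂ) 1) → η ∈ T.Y := by
  obtain ⟨q, r, D⟩ := exists_frobData (p := p) (a := a) (e := e) ha he Q hQ hQcard hF hQC
  haveI := D.normal
  haveI := CfsgLib.CharTheory.finite_irrCharacter (G := F)
  haveI : Fintype (IrrCharacter F) := Fintype.ofFinite _
  have hq0 : q ^ (0 : ZMod (p ^ a)).val = 1 := by rw [ZMod.val_zero, pow_zero]
  set Y : Finset (IrrCharacter F) := Finset.univ.filter fun χ =>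
    ∃ k : ZMod (p ^ a), k ≠ 0 ∧ (χ : F → ℂ) = D.psi k with hY
  set lab : IrrCharacter F → ZMod (p ^ a) := fun χ =>
    if h : ∃ k : ZMod (p ^ a), k ≠ 0 ∧ (χ : F → ℂ) = D.psi k then h.choose else 0 with hlab
  have hlabspec : ∀ χ ∈ Y, lab χ ≠ 0 ∧ (χ : F → ℂ) = D.psi (lab χ) := fun χ hχ => by
    have h := (mem_filter.1 hχ).2
    simp only [hlab, dif_pos h]
    exact h.choose_spec
  have horbit : ∀ k k' : ZMod (p ^ a), k ≠ 0 → D.psi k = D.psi k' →
      ∃ t ∈ exps p a e, k = t * k' := by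
    intro k k' hk h
    have h1 := CharTheory.classInner_self_of_isIrr (D.isIrr_psi he hk)
    nth_rewrite 2 [h] at h1
    rw [D.inner_psi_psi, Nat.cast_eq_one] at h1
    obtain ⟨t, ht⟩ := Finset.card_pos.1 (by omega : 0 < ((exps p a e).filter fun t => t * k' = k).card)
    exact ⟨t, (mem_filter.1 ht).1, (mem_filter.1 ht).2.symm⟩
  set X : Finset (IrrCharacter F) := Finset.univ \ Y with hX
  have hkerQ : ∀ χ ∈ X, ∀ x ∈ Q, (χ : F → ℂ) x = (χ : F → ℂ) 1 := by
    intro χ hχ
    have hχY : χ ∉ Y := (mem_sdiff.1 hχ).2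
    have hz : ∀ k : ZMod (p ^ a), k ≠ 0 →
        ∑ v, ZMod.stdAddChar (k * v) * (starRingEnd ℂ) ((χ : F → ℂ) (q ^ v.val)) = 0 := by
      intro k hk
      have h1 := D.inner_psi k _ (CharTheory.IsIrrCharacter.isClassFunction χ.2)
      rw [CharTheory.classInner_eq_zero_of_ne (D.isIrr_psi he hk) χ.2
        (fun h => hχY (mem_filter.2 ⟨mem_univ _, k, hk, h.symm⟩))] at h1
      exact (mul_eq_zero.1 h1.symm).resolve_left (inv_ne_zero (Nat.cast_ne_zero.2 Nat.card_pos.ne'))
    -- Fourier inversion on `Q`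
    set f : ZMod (p ^ a) → ℂ := fun v => (starRingEnd ℂ) ((χ : F → ℂ) (q ^ v.val)) with hf
    have hinv : ∀ w, (p : ℂ) ^ a * f w = ∑ v, f v := by
      intro w
      have h1 : ∑ k : ZMod (p ^ a), ZMod.stdAddChar (k * (-w)) *
          ∑ v, ZMod.stdAddChar (k * v) * f v = (p : ℂ) ^ a * f w := by
        simp only [Finset.mul_sum, ← mul_assoc, ← AddChar.map_add_eq_mul, ← mul_add]
        rw [Finset.sum_comm]
        simp only [← Finset.sum_mul, sum_stdAddChar, neg_add_eq_zero]
        rw [Finset.sum_eq_single w (fun v _ hv => by rw [if_neg (Ne.symm hv), zero_mul]) (by simp),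
          if_pos rfl]
      rw [← h1, Finset.sum_eq_single 0 (fun k _ hk => by rw [hz k hk, mul_zero]) (by simp)]
      simp
    intro x hx
    obtain ⟨v, rfl⟩ := (D.mem x).1 hx
    have h2 : f v = f 0 := by
      have hp0 : (p : ℂ) ^ a ≠ 0 := pow_ne_zero _ (Nat.cast_ne_zero.2 hp.out.ne_zero)
      exact mul_left_cancel₀ hp0 ((hinv v).trans (hinv 0).symm)
    have h3 := congrArg (starRingEnd ℂ) h2
    simpa [hf] using h3
  have hab : ∀ c d : F ⧸ Q, c * d = d * c := by
    intro c d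
    obtain ⟨f, rfl⟩ := QuotientGroup.mk_surjective c
    obtain ⟨g, rfl⟩ := QuotientGroup.mk_surjective d
    rw [← QuotientGroup.mk_mul, ← QuotientGroup.mk_mul, QuotientGroup.eq, ← D.r_one, D.r_mul,
      D.r_mul]
    have h1 : ∀ z, r z⁻¹ * r z = 1 := fun z => by
      rw [← D.r_mul, inv_mul_cancel, (D.r_one 1).2 Q.one_mem]
    calc r (f * g)⁻¹ * (r g * r f) = r (f * g)⁻¹ * r (f * g) := by rw [D.r_mul f g, mul_comm (r g)]
      _ = 1 := h1 _
  have hX1 : ∀ χ ∈ X, (χ : F → ℂ) 1 = 1 := by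
    intro χ hχ
    obtain ⟨ψ, hψ, hval⟩ := CharTheory.exists_descend χ.2 Q (hkerQ χ hχ)
    rw [hval, QuotientGroup.mk_one]
    exact CharTheory.apply_one_eq_one_of_comm hab hψ
  have hY1 : ∀ χ ∈ Y, (χ : F → ℂ) 1 = e := by
    intro χ hχ
    rw [(hlabspec χ hχ).2, ← hq0, D.psi_coe, mul_zero, orb_zero (card_exps ha he)]
  have hsys : OrbitSys p a e Y lab := by
    refine ⟨fun χ hχ => (hlabspec χ hχ).1, fun k hk => ?_, ?_⟩
    · have hmem : (⟨D.psi k, D.isIrr_psi he hk⟩ : IrrCharacter F) ∈ Y :=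
        mem_filter.2 ⟨mem_univ _, k, hk, rfl⟩
      obtain ⟨h1, h2⟩ := hlabspec _ hmem
      obtain ⟨t, ht, h3⟩ := horbit _ k h1 h2.symm
      exact ⟨_, hmem, t, ht, h3⟩
    · rintro χ hχ χ' hχ' ⟨t, ht, h⟩
      obtain ⟨h1, h2⟩ := hlabspec χ hχ
      obtain ⟨h1', h2'⟩ := hlabspec χ' hχ'
      refine Subtype.ext ?_
      rw [h2, h2']
      have hnz : classInner (D.psi (lab χ)) (D.psi (lab χ')) ≠ 0 := by
        rw [D.inner_psi_psi, Nat.cast_ne_zero, ← Nat.pos_iff_ne_zero, Finset.card_pos]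
        exact ⟨t, mem_filter.2 ⟨ht, h.symm⟩⟩
      by_contra hne
      exact hnz (CharTheory.classInner_eq_zero_of_ne (D.isIrr_psi he h1) (D.isIrr_psi he h1') hne)
  have hdisj : Disjoint X Y := Finset.sdiff_disjoint
  have hsplit : ∀ g : IrrCharacter F → ℂ, ∑ χ, g χ = ∑ χ ∈ X, g χ + ∑ χ ∈ Y, g χ := fun g => by
    rw [← Finset.sum_union hdisj, hX, Finset.sdiff_union_of_subset (subset_univ _)]
  have hcardX : X.card = e := by
    have h := CharTheory.sum_degree_sq (G := F)
    rw [hsplit, Finset.sum_congr (s₁ := X) (g := fun _ => (1 : ℂ)) rfl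
        fun χ hχ => by rw [hX1 χ hχ, one_pow],
      Finset.sum_congr (s₁ := Y) (g := fun _ => (e : ℂ) ^ 2) rfl fun χ hχ => by rw [hY1 χ hχ],
      Finset.sum_const, Finset.sum_const,
      nsmul_eq_mul, nsmul_eq_mul, mul_one, hF, Nat.cast_mul, Nat.cast_pow] at h
    have h2 := hsys.card_mul ha he
    have h3 : (X.card : ℂ) = (e : ℂ) := by linear_combination h - (e : ℂ) * h2
    exact_mod_cast h3
  have hCq : ∀ v : ZMod (p ^ a), v ≠ 0 →
      Subgroup.centralizer ({q ^ v.val} : Set F) = Q := by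
    intro v hv
    ext f
    rw [Subgroup.mem_centralizer_singleton_iff, ← D.r_one]
    constructor
    · intro h
      refine eq_one_of_fix he (D.r_mem f) hv (D.inj _ _ ?_)
      rw [← D.conj, h, mul_inv_cancel_right]
    · intro h
      have h2 := D.conj f v
      rw [h, one_mul] at h2
      calc f * q ^ v.val = f * q ^ v.val * f⁻¹ * f := by group
        _ = q ^ v.val * f := by rw [h2]
  have hreg : ∀ g : F, ¬ p ∣ orderOf g → g = 1 ∨ g ∉ Q := by
    intro g hg
    by_cases hgQ : g ∈ Q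
    · left
      obtain ⟨j, hj⟩ := (IsPGroup.of_card hQcard : IsPGroup p Q) ⟨g, hgQ⟩
      have h1 : g ^ p ^ j = 1 := congrArg Subtype.val hj
      obtain ⟨i, -, hi⟩ := (Nat.dvd_prime_pow hp.out).1 (orderOf_dvd_of_pow_eq_one h1)
      rcases i with _ | i
      · rw [pow_zero] at hi; exact orderOf_eq_one_iff.1 hi
      · exact absurd (hi ▸ dvd_pow_self p i.succ_ne_zero) hg
    · exact Or.inr hgQ
  have hsingQ : ∀ g : F, p ∣ orderOf g → g ∈ Q := by
    intro g hg
    by_contra hgQ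
    obtain ⟨v, hv⟩ := (D.mem _).1 (show g ^ e ∈ Q by
      have hidx : Q.index = e := by
        have h := Q.card_mul_index
        rw [hQcard, hF] at h
        exact Nat.eq_of_mul_eq_mul_left (pow_pos hp.out.pos a) h
      rw [← hidx]
      exact Q.pow_index_mem g)
    have hv0 : v = 0 := by
      by_contra hv0
      refine hgQ ?_
      rw [← hCq v hv0, Subgroup.mem_centralizer_singleton_iff, ← hv, ← pow_succ', ← pow_succ]
    rw [hv0, hq0] at hv
    have h1 := hg.trans (orderOf_dvd_of_pow_eq_one hv)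
    have h2 := Nat.le_of_dvd (e_pos he) h1
    have h3 := Nat.le_of_dvd (by have := hp.out.two_le; omega) he
    have := hp.out.two_le
    omega
  refine ⟨⟨X, Y, fun _ => 1, -1, lab, he, ha, ?_, hdisj, hcardX, fun _ _ => Or.inl rfl,
    Or.inr rfl, hsys, ?_, ?_⟩, ?_⟩
  · rw [← Finset.coe_union, hX, Finset.sdiff_union_of_subset (subset_univ _), Finset.coe_univ]
  · intro ψ hψ g hg
    push_cast
    simp only [one_mul, neg_mul]
    rcases hreg g hg with rfl | hgQ
    · rw [hY1 ψ hψ, Finset.sum_congr rfl fun χ hχ => hX1 χ hχ, Finset.sum_const, hcardX]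
      simp
    · have h0 : ∀ χ ∈ Y, (χ : F → ℂ) g = 0 := fun χ hχ => by
        rw [(hlabspec χ hχ).2, D.psi_of_not_mem _ hgQ]
      have h := CharTheory.sum_degree_mul (G := F) g
      rw [hsplit, Finset.sum_congr rfl fun χ hχ => by rw [hX1 χ hχ, one_mul],
        Finset.sum_eq_zero (s := Y) fun χ hχ => by rw [h0 χ hχ, mul_zero], add_zero,
        if_neg (fun h : g = 1 => hgQ (h ▸ Q.one_mem))] at h
      rw [h0 ψ hψ, h]; simp
  · intro g hg
    obtain ⟨v₀, rfl⟩ := (D.mem g).1 (hsingQ g hg)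
    have hv₀ : v₀ ≠ 0 := fun h => by
      rw [h, hq0, orderOf_one] at hg
      exact hp.out.ne_one (Nat.dvd_one.1 hg)
    refine ⟨fun v => if v = v₀ then 1 else 0, if_neg (Ne.symm hv₀), fun v => ?_, fun v => ?_,
      fun χ hχ => ?_⟩
    · dsimp only
      split_ifs
      · simpa using memLocalRing_natCast (M := M) 1
      · simpa using memLocalRing_natCast (M := M) 0
    · dsimp only
      rw [hCq v₀ hv₀, hQcard, Nat.cast_pow, mul_div_assoc]
      have hp0 : (p : ℂ) ^ a ≠ 0 := pow_ne_zero _ (Nat.cast_ne_zero.2 hp.out.ne_zero)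
      split_ifs
      · rw [one_div, mul_inv_cancel₀ hp0]; simpa using memLocalRing_natCast (M := M) 1
      · rw [zero_div, mul_zero]; simpa using memLocalRing_natCast (M := M) 0
    · dsimp only
      rw [Finset.sum_eq_single v₀ (fun v _ hv => by rw [if_neg hv, zero_mul]) (by simp), if_pos rfl,
        one_mul, shapeFn]
      split_ifs with h
      · rw [hkerQ χ h _ ((D.mem _).2 ⟨v₀, rfl⟩), hX1 χ h, Int.cast_one]
      · have hχY : χ ∈ Y := by
          by_contra h'
          exact h (mem_sdiff.2 ⟨mem_univ _, h'⟩)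
        rw [(hlabspec χ hχY).2, D.psi_coe]
        push_cast
        ring
  · intro η ⟨x, hx, hne⟩
    by_contra h
    exact hne (hkerQ η (mem_sdiff.2 ⟨mem_univ _, h⟩) x hx)

end CfsgLib.Frobenius.CycShape
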