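import Mathlib
import Cfsg.Prelude.Def_BlockRank
import Cfsg.Prelude.Def_BlockLocal
import Cfsg.Agent.Lib.CharTheory.Orthogonality

/-!
# The `p`-regular rank of perfectly isometric sets of characters
-/

set_option autoImplicit false
set_option linter.unusedSectionVars false

noncomputable section

namespace CfsgLib.Frobenius.CycShape

open Cfsg Finset
open scoped Classical

variable {G : Type*} [Group G] [Fintype G] {H : Type*} [Group H] [Fintype H] {p : ℕ}
  {M : Ideal AlgInt}

/-- The map from coefficient vectors to the regular restriction. -/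
def regMap (p : ℕ) (B : Finset (IrrCharacter G)) : (B → ℂ) →ₗ[ℂ] (G → ℂ) :=
  Fintype.linearCombination ℂ fun χ : B => pRegularPart p ((χ : IrrCharacter G) : G → ℂ)

theorem blockRank_eq (B : Finset (IrrCharacter G)) :
    blockRank p (↑B : Set (IrrCharacter G)) + Module.finrank ℂ (LinearMap.ker (regMap p B)) =
      B.card := by
  have h := LinearMap.finrank_range_add_finrank_ker (regMap p B)
  rw [Module.finrank_fintype_fun_eq_card, Fintype.card_coe] at h
  have himg : (fun χ : IrrCharacter G => pRegularPart p (χ : G → ℂ)) '' (↑B : Set _) =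
      Set.range fun χ : B => pRegularPart p ((χ : IrrCharacter G) : G → ℂ) := by
    ext f
    constructor
    · rintro ⟨χ, hχ, rfl⟩; exact ⟨⟨χ, hχ⟩, rfl⟩
    · rintro ⟨⟨χ, hχ⟩, rfl⟩; exact ⟨χ, hχ, rfl⟩
  rw [blockRank, himg, ← Fintype.range_linearCombination]
  exact h

theorem regMap_apply (B : Finset (IrrCharacter G)) (c : B → ℂ) (x : G) :
    regMap p B c x =
      if IsPRegular p x then ∑ χ : B, c χ * ((χ : IrrCharacter G) : G → ℂ) x else 0 := by
  rw [regMap, Fintype.linearCombination_apply, Finset.sum_apply]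
  simp only [Pi.smul_apply, smul_eq_mul, pRegularPart]
  split_ifs <;> simp

/-- A combination vanishing on the regular elements goes to one with the same property. -/
theorem ker_transfer {B : Finset (IrrCharacter G)} {C : Finset (IrrCharacter H)}
    (φ : C ≃ B) (σ : C → ℤ)
    (hvan : ∀ x : G, ∀ y : H, ¬ IsPRegular p x → IsPRegular p y →
      ∑ η : C, (σ η : ℂ) * ((φ η : IrrCharacter G) : G → ℂ) x *
        ((η : IrrCharacter H) : H → ℂ) y = 0)
    (c : B → ℂ) (hc : c ∈ LinearMap.ker (regMap p B)) :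
    (fun η : C => (σ η : ℂ) * c (φ η)) ∈ LinearMap.ker (regMap p C) := by
  rw [LinearMap.mem_ker] at hc ⊢
  funext y
  rw [regMap_apply, Pi.zero_apply]
  split_ifs with hy
  swap
  · rfl
  set Φ : G → ℂ := fun x => ∑ χ : B, c χ * ((χ : IrrCharacter G) : G → ℂ) x
  have hΦ : ∀ x, IsPRegular p x → Φ x = 0 := fun x hx => by
    have := congrFun hc x
    rwa [regMap_apply, if_pos hx, Pi.zero_apply] at this
  set K : G → ℂ := ∑ η : C, ((σ η : ℂ) * ((η : IrrCharacter H) : H → ℂ) y⁻¹) •
      ((φ η : IrrCharacter G) : G → ℂ) with hK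
  have hKv : ∀ x, K x = ∑ η : C, (σ η : ℂ) * ((φ η : IrrCharacter G) : G → ℂ) x *
      ((η : IrrCharacter H) : H → ℂ) y⁻¹ := fun x => by
    rw [hK, Finset.sum_apply]
    exact Finset.sum_congr rfl fun η _ => by rw [Pi.smul_apply, smul_eq_mul]; ring
  have h0 : classInner K Φ = 0 := by
    rw [classInner]
    refine mul_eq_zero_of_right _ (Finset.sum_eq_zero fun x _ => ?_)
    by_cases hx : IsPRegular p x
    · rw [hΦ x hx, map_zero, mul_zero]
    · rw [hKv, hvan x y⁻¹ hx (by rwa [IsPRegular, orderOf_inv]), zero_mul]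
  have hΦ' : Φ = ∑ χ : B, c χ • ((χ : IrrCharacter G) : G → ℂ) := by
    funext x; simp [Φ, Finset.sum_apply]
  have h1 : classInner K Φ = ∑ η : C, (σ η : ℂ) * (starRingEnd ℂ) (c (φ η)) *
      ((η : IrrCharacter H) : H → ℂ) y⁻¹ := by
    rw [hK, hΦ', CharTheory.classInner_sum_left]
    refine Finset.sum_congr rfl fun η _ => ?_
    rw [CharTheory.classInner_smul_left, CharTheory.classInner_sum_right,
      Finset.sum_eq_single (φ η)]
    · rw [CharTheory.classInner_smul_right, CharTheory.classInner_self_of_isIrr (φ η).1.2]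
      ring
    · intro χ _ hχ
      rw [CharTheory.classInner_smul_right, CharTheory.classInner_eq_zero_of_ne (φ η).1.2 χ.1.2
        (fun h => hχ (Subtype.ext (Subtype.ext h.symm))), mul_zero]
    · simp
  rw [h1] at h0
  have h2 := congrArg (starRingEnd ℂ) h0
  rw [map_sum, map_zero] at h2
  refine Eq.trans (Finset.sum_congr rfl fun η _ => ?_) h2
  rw [map_mul, map_mul, Complex.conj_conj, map_intCast,
    ← CharTheory.IsIrrCharacter.inv (η : IrrCharacter H).2, inv_inv]

theorem finrank_ker_le {B : Finset (IrrCharacter G)} {C : Finset (IrrCharacter H)}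
    (φ : C ≃ B) (σ : C → ℤ) (hσ : ∀ η, σ η = 1 ∨ σ η = -1)
    (hvan : ∀ x : G, ∀ y : H, ¬ IsPRegular p x → IsPRegular p y →
      ∑ η : C, (σ η : ℂ) * ((φ η : IrrCharacter G) : G → ℂ) x *
        ((η : IrrCharacter H) : H → ℂ) y = 0) :
    Module.finrank ℂ (LinearMap.ker (regMap p B)) ≤
      Module.finrank ℂ (LinearMap.ker (regMap p C)) := by
  let L : LinearMap.ker (regMap p B) →ₗ[ℂ] LinearMap.ker (regMap p C) :=
    { toFun := fun c => ⟨fun η : C => (σ η : ℂ) * (c : B → ℂ) (φ η),
        ker_transfer φ σ hvan c c.2⟩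
      map_add' := fun c d => Subtype.ext (funext fun η => by simp [mul_add])
      map_smul' := fun z c => Subtype.ext (funext fun η => by simp; ring) }
  refine LinearMap.finrank_le_finrank_of_injective (f := L) fun c d h => Subtype.ext (funext fun χ => ?_)
  have := congrFun (congrArg Subtype.val h) (φ.symm χ)
  simp only [L, LinearMap.coe_mk, AddHom.coe_mk, Equiv.apply_symm_apply] at this
  refine mul_left_cancel₀ ?_ this
  rcases hσ (φ.symm χ) with h' | h' <;> simp [h']

/-- Perfectly isometric sets of characters have the same `p`-regular rank. -/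
theorem blockRank_eq_of_isPerfectIsometry {B : Finset (IrrCharacter G)}
    {C : Finset (IrrCharacter H)} {I : IrrCharacter H → IrrCharacter G}
    {ε : IrrCharacter H → ℤ}
    (hI : IsPerfectIsometry p M (↑C : Set (IrrCharacter H)) (↑B : Set (IrrCharacter G)) I ε) :
    blockRank p (↑C : Set (IrrCharacter H)) = blockRank p (↑B : Set (IrrCharacter G)) := by
  obtain ⟨hbij, hsign, hperf⟩ := hI
  let φ : C ≃ B := Equiv.ofBijective (fun η => ⟨I η, hbij.mapsTo η.2⟩)
    ⟨fun η η' h => Subtype.ext (hbij.injOn η.2 η'.2 (congrArg Subtype.val h)),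
      fun χ => by
        obtain ⟨η, hη, hη'⟩ := hbij.surjOn χ.2
        exact ⟨⟨η, hη⟩, Subtype.ext hη'⟩⟩
  have hker : ∀ x y, (IsPRegular p x ↔ ¬ IsPRegular p y) →
      ∑ η : C, (ε η : ℂ) * ((φ η : IrrCharacter G) : G → ℂ) x *
        ((η : IrrCharacter H) : H → ℂ) y = 0 := by
    intro x y hxy
    rcases (hperf x y).2.2 with h | h
    · exact absurd (hxy.symm.trans h) not_iff_self
    · rw [signedBijectionKernel, finsum_mem_coe_finset, ← Finset.sum_coe_sort C] at h
      exact h
  have hcard : C.card = B.card := by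
    rw [← Fintype.card_coe, ← Fintype.card_coe, Fintype.card_congr φ]
  have h1 := finrank_ker_le (p := p) φ (fun η => ε η) (fun η => hsign η η.2)
    fun x y hx hy => hker x y (by tauto)
  have h2 := finrank_ker_le (p := p) φ.symm (fun χ => ε (φ.symm χ))
    (fun χ => hsign _ (φ.symm χ).2) fun y x hy hx => ?_
  · have e1 := blockRank_eq (p := p) B
    have e2 := blockRank_eq (p := p) C
    omega
  · rw [← hker x y (by tauto)]
    exact (Fintype.sum_equiv φ _ _ fun η => by rw [Equiv.symm_apply_apply]; ring).symm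

end CfsgLib.Frobenius.CycShape
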