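import Cfsg.Agent.Lib.Frobenius.CycShape.FrobGroup
import Cfsg.Agent.Lib.Frobenius.CycShape.Rank
import Cfsg.Agent.Lib.BrauerPairs.AbelianDefect
import Cfsg.Agent.Lib.BrauerPairs.BridgeDefect

/-!
# From blocks with cyclic defect groups to shapes and perfect isometries

The existence of the defect data is taken as the hypothesis `ExistsCycData`.
-/

set_option autoImplicit false
set_option linter.unusedSectionVars false
set_option linter.style.haveILetI false

noncomputable section

namespace CfsgLib.Frobenius.CycShape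

open Cfsg CfsgLib.Blocks CfsgLib.BrauerPairs CfsgLib.Jordan.CyclicDefect

universe u v

/-- The existence statement for the defect data. -/
def ExistsCycData (p : ℕ) [Fact p.Prime] (M : Ideal AlgInt) [M.IsPrime] : Prop :=
  ∀ (G : Type u) [Group G] [Fintype G] (B : Set (IrrCharacter G)) (D : Subgroup G)
    (e0 : MonoidAlgebra (Res M) G) (a e : ℕ) [NeZero (p ^ a)], IsPBlock M B →
    IsMaxPair p (⊤ : Subgroup G) (redElem M (blockCoeff B)) D e0 → IsCyclic D → 1 ≤ a →
    Nat.card D = p ^ a →
    (Subgroup.centralizer (D : Set G)).relIndex (pairStab (⊤ : Subgroup G) D e0) = e →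
    Nonempty (CycData p M B D e0 a e)

theorem exists_card {G : Type u} [Group G] [Finite G] {p : ℕ} [Fact p.Prime] {P : Subgroup G}
    (hP : IsPGroup p P) (hP1 : P ≠ ⊥) : ∃ a, 1 ≤ a ∧ Nat.card P = p ^ a := by
  obtain ⟨a, ha⟩ := IsPGroup.iff_card.1 hP
  refine ⟨a, Nat.one_le_iff_ne_zero.2 fun h => hP1 ?_, ha⟩
  rw [h, pow_zero] at ha
  exact Subgroup.eq_bot_of_card_eq P ha

/-- The isometry with the group `C_{p ^ a} ⋊ C_e`. -/
theorem isometry_frobGroup {G : Type u} [Group G] [Finite G] (p : ℕ) [Fact p.Prime]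
    (M : Ideal AlgInt) [M.IsPrime] (hEx : ExistsCycData.{u} p M) (hM : IsPModular p M)
    (B : Set (IrrCharacter G)) (hB : IsPBlock M B) (P : Subgroup G)
    (hPD : IsDefectGroup p M B P) (hP1 : P ≠ ⊥) (hcyc : IsCyclic P)
    (c : Set (IrrCharacter (Subgroup.centralizer (P : Set G))))
    (hc : IsInducedBlock M (Subgroup.centralizer (P : Set G)) c B) (T : Subgroup G)
    (hT : ∀ g : G, g ∈ T ↔ (g ∈ Subgroup.normalizer (P : Set G) ∧
      StabilizesBlock (Subgroup.centralizer (P : Set G)) c g))
    (e : ℕ) (he : (Subgroup.centralizer (P : Set G)).relIndex T = e) (F : Type v) [Group F]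
    [Finite F] (hF : Nat.card F = Nat.card P * e) (Q : Subgroup F) (hQ : IsCyclic Q)
    (hQcard : Nat.card Q = Nat.card P) (hQC : Subgroup.centralizer (Q : Set F) = Q) :
    ∃ (I : IrrCharacter F → IrrCharacter G) (ε : IrrCharacter F → ℤ),
      IsPerfectIsometry p M (Set.univ : Set (IrrCharacter F)) B I ε ∧
      ∀ η η' : IrrCharacter F, (∃ x ∈ Q, (η : F → ℂ) x ≠ (η : F → ℂ) 1) →
        (∃ x ∈ Q, (η' : F → ℂ) x ≠ (η' : F → ℂ) 1) → ε η = ε η' := by
  haveI := Fintype.ofFinite G
  haveI := Fintype.ofFinite F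
  haveI : M.IsMaximal := hM.2.1
  haveI : CharP (Res M) p := charP_res hM
  haveI : IsAlgClosed (Res M) := isAlgClosed_res
  have hab : ∀ x ∈ P, ∀ y ∈ P, x * y = y * x := fun x hx y hy => by
    have := IsCyclic.commGroup (α := P) |>.mul_comm ⟨x, hx⟩ ⟨y, hy⟩
    exact congrArg Subtype.val this
  have hmax := BrauerPairs.isMaxPair_of_induced hM hB hPD hab hc
  have hTp : pairStab (⊤ : Subgroup G) P (subIdem M _ c) = T := by
    ext y
    rw [mem_pairStab_top_iff hc.1, hT]
  obtain ⟨a, ha, hcard⟩ := exists_card (p := p) hmax.1.1.1 hP1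
  haveI : NeZero (p ^ a) := ⟨pow_ne_zero _ (Fact.out : p.Prime).ne_zero⟩
  obtain ⟨S⟩ := hEx G B P _ a e hB hmax hcyc ha hcard (by rw [hTp]; exact he)
  obtain ⟨T₁, -⟩ := nonempty_shape S
  obtain ⟨T₂, hT₂⟩ := exists_shape_frobGroup (F := F) (p := p) (a := a) (e := e) (M := M)
    (by omega) T₁.e_dvd Q hQ (hQcard.trans hcard) (by rw [hF, hcard]) hQC
  obtain ⟨Φ⟩ := exists_match T₁ T₂
  exact ⟨Φ.f, Φ.sgn, Φ.isPerfectIsometry hM, fun η η' h h' => Φ.sgn_eq (hT₂ η h) (hT₂ η' h')⟩

/-- The isometry with the correspondent in the normalizer of the subgroup of order `p`. -/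
theorem isometry_normalizer {G : Type u} [Group G] [Finite G] (p : ℕ) [Fact p.Prime]
    (M : Ideal AlgInt) [M.IsPrime] (hEx : ExistsCycData.{u} p M) (hM : IsPModular p M)
    (B : Set (IrrCharacter G)) (hB : IsPBlock M B) (P : Subgroup G)
    (hPD : IsDefectGroup p M B P) (hP1 : P ≠ ⊥) (hcyc : IsCyclic P) (Z : Subgroup G) (hZ : Z ≤ P)
    (hZcard : Nat.card Z = p) (H : Subgroup G) (hH : H = Subgroup.normalizer (Z : Set G))
    (c : Set (IrrCharacter H)) (hcD : IsDefectGroup p M c (P.subgroupOf H))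
    (hc : IsInducedBlock M H c B) :
    Nat.card c = Nat.card B ∧ blockRank p c = blockRank p B ∧
      ∃ (I : IrrCharacter H → IrrCharacter G) (ε : IrrCharacter H → ℤ),
        IsPerfectIsometry p M c B I ε := by
  classical
  haveI := Fintype.ofFinite G
  haveI : Fintype H := Fintype.ofFinite H
  haveI : M.IsMaximal := hM.2.1
  haveI : CharP (Res M) p := charP_res hM
  haveI : IsAlgClosed (Res M) := isAlgClosed_res
  have hab : ∀ x ∈ P, ∀ y ∈ P, x * y = y * x := fun x hx y hy => by
    have := IsCyclic.commGroup (α := P) |>.mul_comm ⟨x, hx⟩ ⟨y, hy⟩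
    exact congrArg Subtype.val this
  have hP : IsPGroup p P := ((isDefectGroup_iff hM hB).1 hPD).2.1
  have hPC : P ≤ Subgroup.centralizer (P : Set G) := fun u hu =>
    Subgroup.mem_centralizer_iff.2 fun w hw => hab w hw u hu
  -- the normalizer of `P` lies in `H`
  have hNP : Subgroup.normalizer (P : Set G) ≤ H := by
    intro g hg
    rw [hH, Subgroup.mem_normalizer_iff]
    have hkey : ∀ x ∈ Subgroup.normalizer (P : Set G), ∀ z ∈ Z, x * z * x⁻¹ ∈ Z := by
      intro x hx z hz
      have hzP : x * z * x⁻¹ ∈ P := (Subgroup.mem_normalizer_iff.1 hx z).1 (hZ hz)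
      haveI := hcyc
      have h1 : (⟨x * z * x⁻¹, hzP⟩ : P) ∈ Z.subgroupOf P := by
        have hc1 : Nat.card (Z.subgroupOf P) = p := by
          rw [Nat.card_congr (Subgroup.subgroupOfEquivOfLe hZ).toEquiv, hZcard]
        have hord : orderOf (⟨x * z * x⁻¹, hzP⟩ : P) ∣ p := by
          rw [← Subgroup.orderOf_coe]
          show orderOf (x * z * x⁻¹) ∣ p
          rw [← MulAut.conj_apply, MulEquiv.orderOf_eq, ← hZcard]
          exact Subgroup.orderOf_dvd_natCard Z hz
        by_contra hno
        have hsub : (Z.subgroupOf P : Set P) ∪ {⟨x * z * x⁻¹, hzP⟩} ⊆ {y : P | y ^ p = 1} := by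
          rintro y (hy | rfl)
          · have := orderOf_dvd_iff_pow_eq_one.1
              (Subgroup.orderOf_dvd_natCard (Z.subgroupOf P) hy)
            rwa [hc1] at this
          · exact orderOf_dvd_iff_pow_eq_one.1 hord
        have hle := Set.ncard_le_ncard hsub (Set.toFinite _)
        rw [Set.union_singleton, Set.ncard_insert_of_notMem hno (Set.toFinite _),
          ← Nat.card_coe_set_eq] at hle
        change Nat.card (Z.subgroupOf P) + 1 ≤ _ at hle
        rw [hc1] at hle
        haveI := Fintype.ofFinite P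
        have hb := IsCyclic.card_pow_eq_one_le (α := P) (Fact.out : p.Prime).pos
        rw [Set.ncard_eq_toFinset_card', Set.toFinset_setOf] at hle
        omega
      exact Subgroup.mem_subgroupOf.1 h1
    intro z
    refine ⟨hkey g hg z, fun hz => ?_⟩
    have := hkey g⁻¹ (inv_mem hg) _ hz
    simpa [mul_assoc] using this
  have hPH : P ≤ H := Subgroup.le_normalizer.trans hNP
  have hCH : Subgroup.centralizer (P : Set G) ≤ H :=
    (Subgroup.centralizer_le_normalizer _).trans hNP
  have hZp : IsPGroup p Z := IsPGroup.of_card (n := 1) (by rw [hZcard, pow_one])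
  have hCZ : Subgroup.centralizer (Z : Set G) ≤ H := by
    rw [hH]; exact Subgroup.centralizer_le_normalizer _
  have hZc := (isInducedBlock_iff hM hZp (hZ.trans hPH) hH.le hCZ hc.1 hB).1 hc
  -- a maximal pair of `c` in `H`, seen in `G`
  have hbH := isBlockIdem_redElem_blockCoeff (M := M) hc.1
  obtain ⟨e₁, he₁⟩ := exists_isMaxPair_of_isDefectIn hbH ((isDefectGroup_iff hM hc.1).1 hcD)
  have hmapP : (P.subgroupOf H).map H.subtype = P := by
    rw [Subgroup.subgroupOf_map_subtype, inf_eq_left.2 hPH]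
  have hpairH : PairOf p H (subIdem M H c) P (mapG H.subtype e₁) := by
    have h := (pairOf_mapG_iff (φ := H.subtype) H.subtype_injective).2 he₁.1
    rw [map_top_subtype, hmapP, ← redElem_subgroupBlockCoeff] at h
    exact h
  have hcen : cenIn H P = Subgroup.centralizer (P : Set G) := inf_eq_right.2 hCH
  have hidem : IsBlockIdem (Subgroup.centralizer (P : Set G)) (mapG H.subtype e₁) :=
    isBlockIdem_congr hcen hpairH.1.2.2
  obtain ⟨c₀, hc₀, hc₀e⟩ := exists_isPBlock_subIdem (M := M) hidem
  have heB := isBlockIdem_redElem_blockCoeff (M := M) hB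
  have hZfix : brau Z (redElem M (blockCoeff B)) ∈ fixedBy (Res M) P := by
    exact trunc_mem_fixedBy (fun x hx => normalizer_le_normalizer_cen Z (hH.le (hPH hx)))
      (heB.fixed_of_le le_top)
  have hcfix : subIdem M H c ∈ fixedBy (Res M) P := (isBlockIdem_subIdem hc.1).fixed_of_le hPH
  have hbr : brau P (redElem M (blockCoeff B)) * mapG H.subtype e₁ = mapG H.subtype e₁ := by
    calc brau P (redElem M (blockCoeff B)) * mapG H.subtype e₁
        = brau P (redElem M (blockCoeff B)) * (brau P (subIdem M H c) * mapG H.subtype e₁) := by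
          rw [hpairH.2]
      _ = brau P (brau Z (redElem M (blockCoeff B)) * subIdem M H c) * mapG H.subtype e₁ := by
          rw [show brau P (brau Z (redElem M (blockCoeff B)) * subIdem M H c) =
              brau P (brau Z (redElem M (blockCoeff B))) * brau P (subIdem M H c) from
            trunc_centralizer_mul hP hZfix hcfix, brau_brau_of_le hZ, mul_assoc]
      _ = mapG H.subtype e₁ := by rw [hZc, hpairH.2]
  have hc₀B : IsInducedBlock M (Subgroup.centralizer (P : Set G)) c₀ B :=
    (isInducedBlock_iff hM hP hPC (Subgroup.centralizer_le_normalizer _) le_rfl hc₀ hB).2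
      (by rw [hc₀e]; exact hbr)
  have hmax := BrauerPairs.isMaxPair_of_induced hM hB hPD hab hc₀B
  rw [hc₀e] at hmax
  obtain ⟨a, ha, hcard⟩ := exists_card (p := p) hP hP1
  haveI : NeZero (p ^ a) := ⟨pow_ne_zero _ (Fact.out : p.Prime).ne_zero⟩
  set e := (Subgroup.centralizer (P : Set G)).relIndex
    (pairStab (⊤ : Subgroup G) P (mapG H.subtype e₁)) with he
  -- the two inertial indices agree
  have hcmap : (Subgroup.centralizer ((P.subgroupOf H : Subgroup H) : Set H)).map H.subtype =
      Subgroup.centralizer (P : Set G) := by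
    have h := map_cenIn (φ := H.subtype) H.subtype_injective (⊤ : Subgroup H) (P.subgroupOf H)
    rw [cenIn_top, map_top_subtype, hmapP, hcen] at h
    exact h
  have hsmap : (pairStab (⊤ : Subgroup H) (P.subgroupOf H) e₁).map H.subtype =
      pairStab (⊤ : Subgroup G) P (mapG H.subtype e₁) := by
    ext x
    have hiff : ∀ (hx : x ∈ H), (⟨x, hx⟩ : H) ∈ pairStab (⊤ : Subgroup H) (P.subgroupOf H) e₁ ↔
        x ∈ pairStab (⊤ : Subgroup G) P (mapG H.subtype e₁) := fun hx => by
      rw [← mem_pairStab_map_iff (φ := H.subtype) H.subtype_injective, map_top_subtype, hmapP,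
        mem_pairStab, mem_pairStab]
      simp [hx]
    constructor
    · rintro ⟨y, hy, rfl⟩
      exact (hiff y.2).1 hy
    · intro hx
      exact ⟨⟨x, hNP (mem_pairStab.1 hx).2.1⟩, (hiff _).2 hx, rfl⟩
  have heq : (Subgroup.centralizer ((P.subgroupOf H : Subgroup H) : Set H)).relIndex
      (pairStab (⊤ : Subgroup H) (P.subgroupOf H) e₁) = e := by
    rw [he, ← hcmap, ← hsmap, Subgroup.relIndex_map_map_of_injective _ _ H.subtype_injective]
  obtain ⟨S⟩ := hEx G B P _ a e hB hmax hcyc ha hcard rfl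
  haveI : IsCyclic (P.subgroupOf H) :=
    isCyclic_of_surjective (Subgroup.subgroupOfEquivOfLe hPH).symm
      (Subgroup.subgroupOfEquivOfLe hPH).symm.surjective
  obtain ⟨S'⟩ := hEx H c (P.subgroupOf H) e₁ a e hc.1 he₁ inferInstance ha
    (by rw [Nat.card_congr (Subgroup.subgroupOfEquivOfLe hPH).toEquiv, hcard]) heq
  obtain ⟨T, -⟩ := nonempty_shape S
  obtain ⟨T', -⟩ := nonempty_shape S'
  obtain ⟨Φ⟩ := exists_match T T'
  have hiso := Φ.isPerfectIsometry hM
  refine ⟨Nat.card_congr (hiso.1.equiv _), ?_, Φ.f, Φ.sgn, hiso⟩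
  rw [T.union, T'.union, ← Finset.coe_union, ← Finset.coe_union]
  refine blockRank_eq_of_isPerfectIsometry (I := Φ.f) (ε := Φ.sgn) (M := M) ?_
  rw [Finset.coe_union, Finset.coe_union, ← T.union, ← T'.union]
  exact hiso

end CfsgLib.Frobenius.CycShape
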