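import Mathlib

/-!
# Orbit sums of additive characters of a cyclic `p`-group

The exponents `r` with `r ^ e = 1` in `ZMod (p ^ a)`, `e ∣ p - 1`, act freely on the non-zero
residues; sums of the standard additive character over the orbits.
-/

set_option autoImplicit false

noncomputable section

namespace CfsgLib.Frobenius.CycShape

open Finset

variable (p a e : ℕ) [NeZero (p ^ a)]

/-- The exponents. -/
def exps : Finset (ZMod (p ^ a)) := Finset.univ.filter fun r => r ^ e = 1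

/-- The orbit sum at a residue. -/
def orb (k : ZMod (p ^ a)) : ℂ := ∑ r ∈ exps p a e, ZMod.stdAddChar (r * k)

variable {p a e}

theorem mem_exps {r : ZMod (p ^ a)} : r ∈ exps p a e ↔ r ^ e = 1 := by simp [exps]

variable [hp : Fact p.Prime]

theorem e_pos (he : e ∣ p - 1) : 0 < e :=
  Nat.pos_of_ne_zero fun h => by
    subst h
    have := hp.out.two_le
    have := Nat.eq_zero_of_zero_dvd he
    omega

theorem exists_unit (he : e ∣ p - 1) {r : ZMod (p ^ a)} (hr : r ∈ exps p a e) :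
    ∃ u : (ZMod (p ^ a))ˣ, (u : ZMod (p ^ a)) = r ∧ u ^ e = 1 := by
  obtain ⟨u, rfl⟩ := (IsUnit.of_pow_eq_one (mem_exps.1 hr) (e_pos he).ne' : IsUnit r)
  exact ⟨u, rfl, Units.ext (by simpa using mem_exps.1 hr)⟩

theorem card_exps (ha : a ≠ 0) (he : e ∣ p - 1) : (exps p a e).card = e := by
  classical
  by_cases h2 : p = 2
  · have he1 : e = 1 := Nat.dvd_one.1 (by simpa [h2] using he)
    have : exps p a e = {1} := by ext r; simp [mem_exps, he1]
    rw [this, he1]; simp
  haveI : IsCyclic (ZMod (p ^ a))ˣ := ZMod.isCyclic_units_of_prime_pow p hp.out h2 a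
  have hd : e ∣ Nat.card (ZMod (p ^ a))ˣ := by
    rw [Nat.card_eq_fintype_card, ZMod.card_units_eq_totient,
      Nat.totient_prime_pow hp.out (Nat.pos_of_ne_zero ha)]
    exact he.mul_left _
  have himg : exps p a e =
      (Finset.univ.filter fun u : (ZMod (p ^ a))ˣ => u ^ e = 1).image
        (fun u : (ZMod (p ^ a))ˣ => (u : ZMod (p ^ a))) := by
    ext r
    simp only [mem_image, mem_filter, mem_univ, true_and]
    constructor
    · intro hr
      obtain ⟨u, hu, hue⟩ := exists_unit he hr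
      exact ⟨u, hue, hu⟩
    · rintro ⟨u, hue, rfl⟩
      exact mem_exps.2 (by rw [← Units.val_pow_eq_pow_val, hue, Units.val_one])
  rw [himg, Finset.card_image_of_injective _ Units.val_injective]
  obtain ⟨g, hg⟩ := IsCyclic.exists_generator (α := (ZMod (p ^ a))ˣ)
  have hgo : orderOf g = Nat.card (ZMod (p ^ a))ˣ := orderOf_eq_card_of_forall_mem_zpowers hg
  refine le_antisymm (IsCyclic.card_pow_eq_one_le (e_pos he)) ?_
  set d := Nat.card (ZMod (p ^ a))ˣ / e with hdef
  have hord : orderOf (g ^ d) = e := by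
    have hde : d ∣ orderOf g := hgo ▸ Nat.div_dvd_of_dvd hd
    rw [orderOf_pow_of_dvd (Nat.div_pos (Nat.le_of_dvd Nat.card_pos hd) (e_pos he)).ne' hde, hgo,
      Nat.div_div_self hd Nat.card_pos.ne']
  have hsub : (Finset.range e).image (fun i => (g ^ d) ^ i) ⊆
      Finset.univ.filter fun u : (ZMod (p ^ a))ˣ => u ^ e = 1 := by
    intro u hu
    obtain ⟨i, -, rfl⟩ := mem_image.1 hu
    have h0 : (g ^ d) ^ e = 1 := orderOf_dvd_iff_pow_eq_one.1 hord.dvd
    rw [mem_filter]
    exact ⟨mem_univ _, by rw [← pow_mul, mul_comm i e, pow_mul, h0, one_pow]⟩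
  refine le_trans ?_ (Finset.card_le_card hsub)
  rw [Finset.card_image_of_injOn, Finset.card_range]
  intro i hi j hj hij
  exact pow_injOn_Iio_orderOf (by simpa [hord] using hi) (by simpa [hord] using hj) hij

theorem one_mem_exps : (1 : ZMod (p ^ a)) ∈ exps p a e := mem_exps.2 (one_pow e)

theorem mul_mem_exps {r s : ZMod (p ^ a)} (hr : r ∈ exps p a e) (hs : s ∈ exps p a e) :
    r * s ∈ exps p a e := by
  rw [mem_exps, mul_pow, mem_exps.1 hr, mem_exps.1 hs, mul_one]

theorem exists_inv_exps (he : e ∣ p - 1) {r : ZMod (p ^ a)} (hr : r ∈ exps p a e) :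
    ∃ s ∈ exps p a e, s * r = 1 := by
  refine ⟨r ^ (e - 1), ?_, ?_⟩
  · rw [mem_exps, ← pow_mul, mul_comm, pow_mul, mem_exps.1 hr, one_pow]
  · rw [← pow_succ, Nat.sub_add_cancel (e_pos he), mem_exps.1 hr]

theorem ne_zero_mul (he : e ∣ p - 1) {r k : ZMod (p ^ a)} (hr : r ∈ exps p a e) (hk : k ≠ 0) :
    r * k ≠ 0 := by
  intro h
  obtain ⟨s, -, hs⟩ := exists_inv_exps he hr
  exact hk (by rw [← one_mul k, ← hs, mul_assoc, h, mul_zero])

/-- The exponents act freely. -/
theorem eq_one_of_fix (he : e ∣ p - 1) {r k : ZMod (p ^ a)} (hr : r ∈ exps p a e) (hk : k ≠ 0)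
    (h : r * k = k) : r = 1 := by
  by_contra hr1
  obtain ⟨u, rfl, hue⟩ := exists_unit he hr
  have hu1 : u ≠ 1 := fun hu => hr1 (by rw [hu, Units.val_one])
  -- the unit `u - 1` would kill `k`
  refine hk ?_
  have h0 : ((u : ZMod (p ^ a)) - 1) * k = 0 := by rw [sub_mul, h, one_mul, sub_self]
  suffices hun : IsUnit ((u : ZMod (p ^ a)) - 1) from (IsUnit.mul_right_eq_zero hun).1 h0
  set m := ((u : ZMod (p ^ a)) - 1).val with hm
  rw [← ZMod.natCast_zmod_val ((u : ZMod (p ^ a)) - 1), ← hm, ZMod.isUnit_iff_coprime]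
  refine Nat.Coprime.pow_right a ((Nat.Prime.coprime_iff_not_dvd hp.out).2 ?_).symm
  intro hdvd
  obtain ⟨c, hc⟩ := hdvd
  have hu' : (u : ZMod (p ^ a)) = 1 + (p : ZMod (p ^ a)) * (c : ZMod (p ^ a)) := by
    rw [← Nat.cast_mul, ← hc, hm, ZMod.natCast_zmod_val]; ring
  -- such a unit has order dividing a power of `p`
  have hpow : ((1 : ℤ) + p * c) ^ p ^ a ≡ 1 [ZMOD (p : ℤ) ^ a] := by
    have hsub : (p : ℤ) ^ (a + 1) ∣ ((1 : ℤ) + p * c) ^ p ^ a - 1 ^ p ^ a :=
      dvd_sub_pow_of_dvd_sub (R := ℤ) (a := (1 : ℤ) + p * c) (b := 1) ⟨(c : ℤ), by ring⟩ a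
    rw [one_pow] at hsub
    exact (Int.modEq_iff_dvd.2 ((pow_dvd_pow _ (Nat.le_succ a)).trans hsub)).symm
  have hu2 : u ^ p ^ a = 1 := by
    refine Units.ext ?_
    have h3 := (ZMod.intCast_eq_intCast_iff (((1 : ℤ) + p * c) ^ p ^ a) 1 (p ^ a)).2
      (by rw [Nat.cast_pow]; exact hpow)
    push_cast at h3
    rw [Units.val_pow_eq_pow_val, Units.val_one, hu']
    exact h3
  have hcop : Nat.Coprime e (p ^ a) := by
    refine Nat.Coprime.pow_right a ((Nat.Prime.coprime_iff_not_dvd hp.out).2 ?_).symm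
    intro h
    have h1 := Nat.le_of_dvd (e_pos he) h
    have h2 := Nat.le_of_dvd (by have := hp.out.two_le; omega) he
    have := hp.out.two_le
    omega
  exact hu1 (orderOf_eq_one_iff.1 (Nat.eq_one_of_dvd_coprimes hcop
    (orderOf_dvd_of_pow_eq_one hue) (orderOf_dvd_of_pow_eq_one hu2)))

omit hp in
theorem sum_stdAddChar (v : ZMod (p ^ a)) :
    ∑ k : ZMod (p ^ a), ZMod.stdAddChar (k * v) = if v = 0 then ((p : ℂ) ^ a) else 0 := by
  rw [AddChar.sum_mulShift v (ZMod.isPrimitive_stdAddChar _)]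
  split_ifs <;> simp

omit hp in
theorem orb_zero (hc : (exps p a e).card = e) : orb p a e 0 = (e : ℂ) := by
  simp [orb, hc]

/-- A system of representatives of the orbits. -/
structure OrbitSys {ι : Type*} (p a e : ℕ) [NeZero (p ^ a)] (Y : Finset ι)
    (lab : ι → ZMod (p ^ a)) : Prop where
  ne : ∀ i ∈ Y, lab i ≠ 0
  surj : ∀ k : ZMod (p ^ a), k ≠ 0 → ∃ i ∈ Y, ∃ r ∈ exps p a e, lab i = r * k
  inj : ∀ i ∈ Y, ∀ j ∈ Y, (∃ r ∈ exps p a e, lab i = r * lab j) → i = j

variable {ι : Type*} {Y : Finset ι} {lab : ι → ZMod (p ^ a)}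

/-- Sums over the orbits are sums over the non-zero residues. -/
theorem OrbitSys.sum_eq (he : e ∣ p - 1) (H : OrbitSys p a e Y lab) (g : ZMod (p ^ a) → ℂ) :
    ∑ i ∈ Y, ∑ r ∈ exps p a e, g (r * lab i) = ∑ k ∈ Finset.univ.erase 0, g k := by
  rw [← Finset.sum_product']
  refine Finset.sum_bij (fun x _ => x.2 * lab x.1) ?_ ?_ ?_ (fun _ _ => rfl)
  · intro x hx
    rw [mem_product] at hx
    exact mem_erase.2 ⟨ne_zero_mul he hx.2 (H.ne _ hx.1), mem_univ _⟩
  · intro x hx y hy hxy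
    rw [mem_product] at hx hy
    obtain ⟨s, hs, hs'⟩ := exists_inv_exps he hx.2
    have h1 : lab x.1 = (s * y.2) * lab y.1 := by
      rw [mul_assoc, ← hxy, ← mul_assoc, hs', one_mul]
    have h2 : x.1 = y.1 := H.inj _ hx.1 _ hy.1 ⟨_, mul_mem_exps hs hy.2, h1⟩
    refine Prod.ext h2 ?_
    have h5 : lab y.1 = s * y.2 * lab y.1 := by rw [← h1, h2]
    have h3 : s * y.2 = 1 := eq_one_of_fix he (mul_mem_exps hs hy.2) (H.ne _ hy.1) h5.symm
    calc x.2 = x.2 * (s * y.2) := by rw [h3, mul_one]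
      _ = (s * x.2) * y.2 := by ring
      _ = y.2 := by rw [hs', one_mul]
  · intro k hk
    obtain ⟨i, hi, r, hr, hri⟩ := H.surj k (mem_erase.1 hk).1
    obtain ⟨s, hs, hs'⟩ := exists_inv_exps he hr
    exact ⟨(i, s), mem_product.2 ⟨hi, hs⟩, by rw [hri, ← mul_assoc, hs', one_mul]⟩

theorem OrbitSys.card_mul (ha : a ≠ 0) (he : e ∣ p - 1) (H : OrbitSys p a e Y lab) :
    (Y.card : ℂ) * e = (p : ℂ) ^ a - 1 := by
  have h := H.sum_eq he (fun _ => (1 : ℂ))
  simp only [Finset.sum_const, card_exps ha he, nsmul_eq_mul, mul_one] at h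
  rw [h, Finset.card_erase_of_mem (mem_univ _), Finset.card_univ, ZMod.card,
    Nat.cast_sub (Nat.one_le_iff_ne_zero.2 (NeZero.ne _))]
  push_cast
  ring

/-- The orbit sums at a non-zero residue add up to `-1`. -/
theorem OrbitSys.sum_orb (he : e ∣ p - 1) (H : OrbitSys p a e Y lab) {v : ZMod (p ^ a)}
    (hv : v ≠ 0) : ∑ i ∈ Y, orb p a e (lab i * v) = -1 := by
  have h := H.sum_eq he (fun k => ZMod.stdAddChar (k * v))
  simp only [mul_assoc] at h
  simp only [orb]
  rw [h, Finset.sum_erase_eq_sub (mem_univ _), sum_stdAddChar, if_neg hv, zero_mul, AddChar.map_zero_eq_one,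
    zero_sub]

/-- The second orthogonality. -/
theorem OrbitSys.sum_orb_mul (ha : a ≠ 0) (he : e ∣ p - 1) (H : OrbitSys p a e Y lab)
    (v w : ZMod (p ^ a)) :
    (e : ℂ) + ∑ i ∈ Y, orb p a e (lab i * v) * orb p a e (lab i * w) =
      (p : ℂ) ^ a * ((exps p a e).filter fun t => v + t * w = 0).card := by
  have hone : ∀ i : ι, orb p a e (lab i * v) * orb p a e (lab i * w) =
      ∑ r ∈ exps p a e, ∑ t ∈ exps p a e,
        ZMod.stdAddChar (r * lab i * (v + t * w)) := by
    intro i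
    rw [orb, orb, Finset.sum_mul]
    refine Finset.sum_congr rfl fun r hr => ?_
    rw [Finset.mul_sum]
    obtain ⟨s, hs, hs'⟩ := exists_inv_exps he hr
    refine Finset.sum_bij' (fun t _ => s * t) (fun t _ => r * t)
      (fun t ht => mul_mem_exps hs ht) (fun t ht => mul_mem_exps hr ht)
      (fun t _ => by rw [← mul_assoc, mul_comm r s, hs', one_mul])
      (fun t _ => by rw [← mul_assoc, hs', one_mul]) (fun t _ => ?_)
    rw [← AddChar.map_add_eq_mul]
    congr 1
    have h4 : r * (s * t) = t := by rw [← mul_assoc, mul_comm r s, hs', one_mul]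
    calc r * (lab i * v) + t * (lab i * w) = r * (lab i * v) + r * (s * t) * (lab i * w) := by
          rw [h4]
      _ = r * lab i * (v + s * t * w) := by ring
  simp only [hone]
  rw [H.sum_eq he (fun k => ∑ t ∈ exps p a e, ZMod.stdAddChar (k * (v + t * w))), Finset.sum_comm]
  have : ∀ t ∈ exps p a e, ∑ k ∈ Finset.univ.erase 0, ZMod.stdAddChar (k * (v + t * w)) =
      (if v + t * w = 0 then (p : ℂ) ^ a else 0) - 1 := by
    intro t _
    rw [Finset.sum_erase_eq_sub (mem_univ _), sum_stdAddChar, zero_mul, AddChar.map_zero_eq_one]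
  rw [Finset.sum_congr rfl this, Finset.sum_sub_distrib, Finset.sum_ite, Finset.sum_const_zero,
    add_zero, Finset.sum_const, Finset.sum_const, card_exps ha he, nsmul_eq_mul, nsmul_eq_mul,
    mul_one]
  ring

end CfsgLib.Frobenius.CycShape
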