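import Mathlib
import Cfsg.Agent.Lib.CharTheory.Decomp
import Cfsg.Agent.Lib.CharTheory.Linear
import Cfsg.Agent.Lib.Blocks.LocalRing

/-!
# Combinations of characters vanishing on the singular elements

An algebraic-integral combination of characters which vanishes on the elements of order divisible
by `p` is divisible, in the local ring, by the order of every centralizer of a regular element.
-/

set_option autoImplicit false
set_option linter.unusedSectionVars false

noncomputable section

namespace CfsgLib.Frobenius.CycShape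

open Cfsg Finset CfsgLib.Blocks
open scoped ComplexConjugate

variable {G : Type*} [Group G] [Finite G] {p : ℕ} [Fact p.Prime] {M : Ideal AlgInt} [M.IsPrime]

theorem isCharacter_compHom {H : Type*} [Group H] {χ : G → ℂ} (h : IsCharacter G χ) (f : H →* G) :
    IsCharacter H fun x => χ (f x) := by
  obtain ⟨n, ρ, rfl⟩ := h
  exact ⟨n, ρ.comp f, rfl⟩

theorem memLocalRing_div_centralizer (hM : IsPModular p M) {ι : Type*} (s : Finset ι) (c : ι → ℂ)
    (χ : ι → G → ℂ) (hc : ∀ i ∈ s, MemLocalRing M (c i)) (hχ : ∀ i ∈ s, IsCharacter G (χ i))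
    (hvan : ∀ g : G, p ∣ orderOf g → ∑ i ∈ s, c i * χ i g = 0) {x : G} (hx : ¬ p ∣ orderOf x) :
    MemLocalRing M ((∑ i ∈ s, c i * χ i x) /
      (Nat.card (Subgroup.centralizer ({x} : Set G)) : ℂ)) := by
  classical
  set C := Subgroup.centralizer ({x} : Set G) with hC
  obtain ⟨P⟩ : Nonempty (Sylow p C) := inferInstance
  obtain ⟨k, hk⟩ := IsPGroup.iff_card.1 P.2
  set m := orderOf x with hm
  haveI : NeZero m := ⟨(orderOf_pos x).ne'⟩
  haveI : Fintype (P : Subgroup C) := Fintype.ofFinite _
  set Φ : G → ℂ := fun g => ∑ i ∈ s, c i * χ i g with hΦ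
  let pw : Multiplicative (ZMod m) →* G :=
    { toFun := fun i => x ^ (Multiplicative.toAdd i).val
      map_one' := by simp
      map_mul' := fun i j => by
        rw [← pow_add, toAdd_mul, ZMod.val_add]
        exact (pow_mod_orderOf x _) }
  have hcomm : ∀ (i : Multiplicative (ZMod m)) (u : (P : Subgroup C)),
      Commute (pw i) ((u : C) : G) := fun i u => by
    have h1 : Commute x ((u : C) : G) := (Subgroup.mem_centralizer_singleton_iff.1 (u : C).2).symm
    exact h1.pow_left _
  let f : Multiplicative (ZMod m) × (P : Subgroup C) →* G :=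
    (pw.noncommCoprod (C.subtype.comp (P : Subgroup C).subtype) hcomm)
  have hsing : ∀ (i : Multiplicative (ZMod m)) (u : (P : Subgroup C)), u ≠ 1 →
      Φ (f (i, u)) = 0 := by
    intro i u hu
    refine hvan _ ?_
    have hf : f (i, u) = pw i * ((u : C) : G) := rfl
    rw [hf]
    by_contra hno
    -- a power of the product removes the `p`-element
    obtain ⟨j, hj⟩ := P.2 u
    have hu0 : ((u : C) : G) ^ p ^ j = 1 := by
      have := congrArg (fun z : (P : Subgroup C) => ((z : C) : G)) hj
      simpa using this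
    have hz : (pw i) ^ m = 1 := by
      show (x ^ _) ^ m = 1
      rw [← pow_mul, mul_comm, pow_mul, pow_orderOf_eq_one, one_pow]
    set n := orderOf (pw i * ((u : C) : G)) with hn
    have h1 : ((u : C) : G) ^ (m * n) = 1 := by
      have := pow_orderOf_eq_one (pw i * ((u : C) : G))
      rw [← hn, (hcomm i u).mul_pow] at this
      have h2 := congrArg (fun z : G => z ^ m) this
      simp only [one_pow, ((hcomm i u).pow_pow n n).mul_pow, ← pow_mul] at h2
      rwa [mul_comm n m, pow_mul (pw i), hz, one_pow, one_mul] at h2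
    have hcop : Nat.Coprime (p ^ j) (m * n) := Nat.Coprime.pow_left j
      ((Nat.Prime.coprime_iff_not_dvd (Fact.out : p.Prime)).2
        (fun h => ((Fact.out : p.Prime).dvd_mul.1 h).elim hx hno))
    have h3 : ((u : C) : G) = 1 :=
      orderOf_eq_one_iff.1 (Nat.eq_one_of_dvd_coprimes hcop
        (orderOf_dvd_of_pow_eq_one hu0) (orderOf_dvd_of_pow_eq_one h1))
    exact hu (Subtype.ext (Subtype.ext h3))
  let ev : ZMod m → Multiplicative (ZMod m) × (P : Subgroup C) →* ℂˣ := fun l =>
    { toFun := fun z => Units.mk0 (ZMod.stdAddChar (l * Multiplicative.toAdd z.1))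
        (fun h => by
          have h1 := AddChar.map_neg_eq_inv (ZMod.stdAddChar (N := m))
            (l * Multiplicative.toAdd z.1)
          have h2 : ZMod.stdAddChar (l * Multiplicative.toAdd z.1 +
              -(l * Multiplicative.toAdd z.1)) = (1 : ℂ) := by
            rw [add_neg_cancel, AddChar.map_zero_eq_one]
          rw [AddChar.map_add_eq_mul, h, zero_mul] at h2
          exact zero_ne_one h2)
      map_one' := Units.ext (by simp)
      map_mul' := fun z z' => Units.ext (by simp [mul_add, AddChar.map_add_eq_mul]) }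
  set E := Multiplicative (ZMod m) × (P : Subgroup C)
  have hJ : ∀ l : ZMod m, MemLocalRing M
      (classInner (fun z : E => Φ (f z)) (fun z : E => (ev l z : ℂ))) := by
    intro l
    have : (fun z : E => Φ (f z)) = ∑ i ∈ s, c i • fun z : E => χ i (f z) := by
      funext z; simp [hΦ, Finset.sum_apply]
    rw [this, CharTheory.classInner_sum_left]
    refine memLocalRing_sum fun i hi => ?_
    rw [CharTheory.classInner_smul_left]
    obtain ⟨n, hn⟩ := CharTheory.exists_classInner_eq_int
      (CharTheory.IsCharacter.isGeneralizedCharacter (isCharacter_compHom (hχ i hi) f))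
      (CharTheory.IsIrrCharacter.isGeneralizedCharacter (CharTheory.isIrrCharacter_linear (ev l)))
    rw [hn]
    exact memLocalRing_mul (hc i hi) (memLocalRing_intCast n)
  have hJval : ∀ l : ZMod m, classInner (fun z : E => Φ (f z)) (fun z : E => (ev l z : ℂ)) =
      ((m : ℂ) * (p : ℂ) ^ k)⁻¹ *
        ∑ i : ZMod m, Φ (x ^ i.val) * conj (ZMod.stdAddChar (l * i)) := by
    intro l
    have hcard : (Nat.card E : ℂ) = (m : ℂ) * (p : ℂ) ^ k := by
      rw [Nat.card_prod, Nat.cast_mul, Nat.card_congr Multiplicative.toAdd, Nat.card_zmod, hk,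
        Nat.cast_pow]
    rw [classInner, hcard]
    congr 1
    rw [Fintype.sum_prod_type]
    refine Fintype.sum_equiv Multiplicative.toAdd _ _ fun i => ?_
    rw [Finset.sum_eq_single (1 : (P : Subgroup C))]
    · show Φ (pw i * 1) * _ = _
      rw [mul_one]
      rfl
    · intro u _ hu
      rw [hsing i u hu, zero_mul]
    · simp
  have hsum : Φ x / (p : ℂ) ^ k = ∑ l : ZMod m,
      classInner (fun z : E => Φ (f z)) (fun z : E => (ev l z : ℂ)) *
        ZMod.stdAddChar (l * 1) := by
    simp only [hJval, mul_assoc, Finset.sum_mul, ← Finset.mul_sum]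
    rw [Finset.sum_comm]
    have h1 : ∀ i : ZMod m, ∑ l : ZMod m, Φ (x ^ i.val) * (conj (ZMod.stdAddChar (l * i)) *
        ZMod.stdAddChar (l * 1)) = if i = 1 then Φ (x ^ i.val) * (m : ℂ) else 0 := by
      intro i
      rw [← Finset.mul_sum]
      have : ∀ l : ZMod m, conj (ZMod.stdAddChar (l * i)) * ZMod.stdAddChar (l * 1) =
          ZMod.stdAddChar (l * (1 - i)) := fun l => by
        rw [← AddChar.map_neg_eq_conj, ← AddChar.map_add_eq_mul]; congr 1; ring
      simp only [this, AddChar.sum_mulShift _ (ZMod.isPrimitive_stdAddChar m), ZMod.card,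
        sub_eq_zero, eq_comm (a := (1 : ZMod m)), Nat.cast_ite, Nat.cast_zero, mul_ite, mul_zero]
    rw [Finset.sum_congr rfl fun i _ => h1 i, Finset.sum_ite_eq' Finset.univ (1 : ZMod m), if_pos (mem_univ _)]
    have hx1 : x ^ (1 : ZMod m).val = x := by
      rw [ZMod.val_one_eq_one_mod, hm, pow_mod_orderOf, pow_one]
    rw [hx1]
    have hm0 : (m : ℂ) ≠ 0 := Nat.cast_ne_zero.2 (NeZero.ne m)
    field_simp
  have hroot : ∀ l : ZMod m, MemLocalRing M (ZMod.stdAddChar (l * 1)) := fun l =>
    memLocalRing_of_isIntegral (IsIntegral.of_pow (Nat.pos_of_ne_zero (NeZero.ne m)) (by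
      rw [← AddChar.map_nsmul_eq_pow, nsmul_eq_mul, ZMod.natCast_self, zero_mul,
        AddChar.map_zero_eq_one]
      exact isIntegral_one))
  have hloc : MemLocalRing M (Φ x / (p : ℂ) ^ k) := by
    rw [hsum]; exact memLocalRing_sum fun l _ => memLocalRing_mul (hJ l) (hroot l)
  have hidx : ¬ p ∣ (P : Subgroup C).index := P.not_dvd_index
  have hfin : Φ x / (Nat.card C : ℂ) =
      Φ x / (p : ℂ) ^ k * ((P : Subgroup C).index : ℂ)⁻¹ := by
    rw [← (P : Subgroup C).card_mul_index, hk, Nat.cast_mul, Nat.cast_pow, div_eq_mul_inv,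
      div_eq_mul_inv, mul_inv, mul_assoc]
  show MemLocalRing M (Φ x / (Nat.card C : ℂ))
  rw [hfin]
  exact memLocalRing_mul hloc (memLocalRing_inv_natCast hM hidx)

end CfsgLib.Frobenius.CycShape
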