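import Cfsg.Prelude.Def_BlockLocal
import Cfsg.Agent.Lib.Frobenius.CycShape.Orbit
import Cfsg.Agent.Lib.Frobenius.CycShape.RegularDvd

/-!
# Perfect isometries between two blocks of cyclic shape

`Shape p a e M B` records the shape of the character values of a block with cyclic defect group of
order `p ^ a` and inertial index `e`, without reference to the defect group.  Two blocks of the
same shape are perfectly isometric.
-/

set_option autoImplicit false
set_option linter.unusedSectionVars false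

noncomputable section

namespace CfsgLib.Frobenius.CycShape

open Cfsg Finset CfsgLib.Blocks
open scoped Classical

variable {p a e : ℕ} [NeZero (p ^ a)]

/-- The function on the residues attached to a character. -/
def shapeFn {ι : Type*} (p a e : ℕ) [NeZero (p ^ a)] (X : Finset ι) (δ : ι → ℤ) (δ₀ : ℤ)
    (lab : ι → ZMod (p ^ a)) (χ : ι) (v : ZMod (p ^ a)) : ℂ := by
  classical exact if χ ∈ X then (δ χ : ℂ) else -(δ₀ : ℂ) * orb p a e (lab χ * v)

/-- The shape of a block with cyclic defect group. -/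
structure Shape {G : Type*} [Group G] (p a e : ℕ) [NeZero (p ^ a)] (M : Ideal AlgInt)
    (B : Set (IrrCharacter G)) where
  /-- the non-exceptional characters -/
  X : Finset (IrrCharacter G)
  /-- the exceptional characters -/
  Y : Finset (IrrCharacter G)
  /-- the signs -/
  δ : IrrCharacter G → ℤ
  /-- the sign of the exceptional family -/
  δ₀ : ℤ
  /-- the orbit representative -/
  lab : IrrCharacter G → ZMod (p ^ a)
  e_dvd : e ∣ p - 1
  a_pos : a ≠ 0
  union : B = ↑X ∪ ↑Y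
  disj : Disjoint X Y
  card_X : X.card = e
  sign : ∀ χ ∈ X, δ χ = 1 ∨ δ χ = -1
  sign₀ : δ₀ = 1 ∨ δ₀ = -1
  sys : OrbitSys p a e Y lab
  rel : ∀ ψ ∈ Y, ∀ g : G, ¬ p ∣ orderOf g →
    (δ₀ : ℂ) * (ψ : G → ℂ) g + ∑ χ ∈ X, (δ χ : ℂ) * (χ : G → ℂ) g = 0
  value : ∀ g : G, p ∣ orderOf g → ∃ w : ZMod (p ^ a) → ℂ, w 0 = 0 ∧
    (∀ v, MemLocalRing M (w v)) ∧
    (∀ v, MemLocalRing M ((p : ℂ) ^ a * w v /
      (Nat.card (Subgroup.centralizer ({g} : Set G)) : ℂ))) ∧
    ∀ χ ∈ X ∪ Y, (χ : G → ℂ) g = ∑ v, w v * shapeFn p a e X δ δ₀ lab χ v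

variable {G : Type*} [Group G] {H : Type*} [Group H] {M : Ideal AlgInt}
  {B : Set (IrrCharacter G)} {C : Set (IrrCharacter H)}

theorem Shape.fn_of_mem_X (S : Shape p a e M B) {χ : IrrCharacter G} (h : χ ∈ S.X)
    (v : ZMod (p ^ a)) : shapeFn p a e S.X S.δ S.δ₀ S.lab χ v = (S.δ χ : ℂ) := by
  classical
  rw [shapeFn, if_pos h]

theorem Shape.fn_of_mem_Y (S : Shape p a e M B) {χ : IrrCharacter G} (h : χ ∈ S.Y)
    (v : ZMod (p ^ a)) :
    shapeFn p a e S.X S.δ S.δ₀ S.lab χ v = -(S.δ₀ : ℂ) * orb p a e (S.lab χ * v) := by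
  classical
  rw [shapeFn, if_neg fun h' => Finset.disjoint_left.1 S.disj h' h]

/-- A matching of the characters of two blocks of the same shape. -/
structure Match (S : Shape p a e M B) (S' : Shape p a e M C) where
  /-- the map -/
  f : IrrCharacter H → IrrCharacter G
  /-- the inverse map -/
  g : IrrCharacter G → IrrCharacter H
  maps_X : ∀ η ∈ S'.X, f η ∈ S.X
  maps_Y : ∀ η ∈ S'.Y, f η ∈ S.Y
  inv_X : ∀ χ ∈ S.X, g χ ∈ S'.X
  inv_Y : ∀ χ ∈ S.Y, g χ ∈ S'.Y
  left_inv : ∀ η ∈ S'.X ∪ S'.Y, g (f η) = η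
  right_inv : ∀ χ ∈ S.X ∪ S.Y, f (g χ) = χ
  lab_eq : ∀ η ∈ S'.Y, ∃ r ∈ exps p a e, S'.lab η = r * S.lab (f η)

variable [hp : Fact p.Prime]

/-- The matching read backwards. -/
def Match.symm {S : Shape p a e M B} {S' : Shape p a e M C} (T : Match S S') : Match S' S where
  f := T.g
  g := T.f
  maps_X := T.inv_X
  maps_Y := T.inv_Y
  inv_X := T.maps_X
  inv_Y := T.maps_Y
  left_inv := T.right_inv
  right_inv := T.left_inv
  lab_eq := by
    classical
    intro χ hχ
    obtain ⟨r, hr, hlab⟩ := T.lab_eq _ (T.inv_Y _ hχ)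
    obtain ⟨s, hs, hs'⟩ := exists_inv_exps S.e_dvd hr
    refine ⟨s, hs, ?_⟩
    rw [hlab, T.right_inv χ (mem_union_right _ hχ), ← mul_assoc, hs', one_mul]

theorem exists_match (S : Shape p a e M B) (S' : Shape p a e M C) : Nonempty (Match S S') := by
  classical
  have hc : S'.X.card = S.X.card := by rw [S.card_X, S'.card_X]
  set φ : S'.X ≃ S.X := Finset.equivOfCardEq hc
  have hy : ∀ η ∈ S'.Y, ∃ ψ ∈ S.Y, ∃ r ∈ exps p a e, S.lab ψ = r * S'.lab η := fun η hη =>
    S.sys.surj _ (S'.sys.ne η hη)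
  have hy' : ∀ ψ ∈ S.Y, ∃ η ∈ S'.Y, ∃ r ∈ exps p a e, S'.lab η = r * S.lab ψ := fun ψ hψ =>
    S'.sys.surj _ (S.sys.ne ψ hψ)
  have hX : S'.X.Nonempty := Finset.card_pos.1 (by rw [S'.card_X]; exact e_pos S'.e_dvd)
  have hX' : S.X.Nonempty := Finset.card_pos.1 (by rw [S.card_X]; exact e_pos S.e_dvd)
  let f : IrrCharacter H → IrrCharacter G := fun η =>
    if h : η ∈ S'.X then (φ ⟨η, h⟩ : IrrCharacter G)
    else if h' : η ∈ S'.Y then (hy η h').choose else hX'.choose
  let g : IrrCharacter G → IrrCharacter H := fun χ =>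
    if h : χ ∈ S.X then (φ.symm ⟨χ, h⟩ : IrrCharacter H)
    else if h' : χ ∈ S.Y then (hy' χ h').choose else hX.choose
  have hnot : ∀ η ∈ S'.Y, η ∉ S'.X := fun η h h' => Finset.disjoint_left.1 S'.disj h' h
  have hnot' : ∀ χ ∈ S.Y, χ ∉ S.X := fun χ h h' => Finset.disjoint_left.1 S.disj h' h
  have hfX : ∀ η (h : η ∈ S'.X), f η = (φ ⟨η, h⟩ : IrrCharacter G) := fun η h => dif_pos h
  have hgX : ∀ χ (h : χ ∈ S.X), g χ = (φ.symm ⟨χ, h⟩ : IrrCharacter H) := fun χ h => dif_pos h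
  have hfY : ∀ η (h : η ∈ S'.Y), f η = (hy η h).choose := fun η h => by
    simp only [f, dif_neg (hnot η h), dif_pos h]
  have hgY : ∀ χ (h : χ ∈ S.Y), g χ = (hy' χ h).choose := fun χ h => by
    simp only [g, dif_neg (hnot' χ h), dif_pos h]
  have hfmY : ∀ η ∈ S'.Y, f η ∈ S.Y := fun η h => by
    rw [hfY η h]; exact (hy η h).choose_spec.1
  have hgmY : ∀ χ ∈ S.Y, g χ ∈ S'.Y := fun χ h => by
    rw [hgY χ h]; exact (hy' χ h).choose_spec.1
  refine ⟨⟨f, g, fun η h => ?_, hfmY, fun χ h => ?_, hgmY, ?_, ?_, ?_⟩⟩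
  · rw [hfX η h]; exact (φ ⟨η, h⟩).2
  · rw [hgX χ h]; exact (φ.symm ⟨χ, h⟩).2
  · intro η hη
    rcases mem_union.1 hη with h | h
    · rw [hfX η h, hgX _ (φ ⟨η, h⟩).2]
      simp
    · obtain ⟨r, hr, h1⟩ := (hy η h).choose_spec.2
      obtain ⟨s, hs, h2⟩ := (hy' (f η) (hfmY η h)).choose_spec.2
      rw [hgY _ (hfmY η h)]
      refine S'.sys.inj _ (hy' (f η) (hfmY η h)).choose_spec.1 η h ⟨s * r, mul_mem_exps hs hr, ?_⟩
      rw [h2, mul_assoc, ← h1, hfY η h]
  · intro χ hχ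
    rcases mem_union.1 hχ with h | h
    · rw [hgX χ h, hfX _ (φ.symm ⟨χ, h⟩).2]
      simp
    · obtain ⟨r, hr, h1⟩ := (hy' χ h).choose_spec.2
      obtain ⟨s, hs, h2⟩ := (hy (g χ) (hgmY χ h)).choose_spec.2
      rw [hfY _ (hgmY χ h)]
      refine S.sys.inj _ (hy (g χ) (hgmY χ h)).choose_spec.1 χ h ⟨s * r, mul_mem_exps hs hr, ?_⟩
      rw [h2, mul_assoc, ← h1, hgY χ h]
  · intro η h
    obtain ⟨r, hr, h1⟩ := (hy η h).choose_spec.2
    obtain ⟨s, hs, hs'⟩ := exists_inv_exps S'.e_dvd hr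
    refine ⟨s, hs, ?_⟩
    rw [hfY η h, h1, ← mul_assoc, hs', one_mul]

variable {S : Shape p a e M B} {S' : Shape p a e M C}

/-- The signs of the isometry. -/
def Match.sgn (T : Match S S') (η : IrrCharacter H) : ℤ := by
  classical exact if η ∈ S'.X then S.δ (T.f η) * S'.δ η else S.δ₀ * S'.δ₀

/-- The kernel of the isometry. -/
def Match.ker (T : Match S S') (x : G) (y : H) : ℂ :=
  (∑ η ∈ S'.X, ((S.δ (T.f η) * S'.δ η : ℤ) : ℂ) * (T.f η : G → ℂ) x * (η : H → ℂ) y) +
    ∑ η ∈ S'.Y, ((S.δ₀ * S'.δ₀ : ℤ) : ℂ) * (T.f η : G → ℂ) x * (η : H → ℂ) y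

theorem Match.kernel_eq (T : Match S S') (x : G) (y : H) :
    signedBijectionKernel C T.f T.sgn x y = T.ker x y := by
  classical
  have hC : C = ↑(S'.X ∪ S'.Y) := S'.union.trans (Finset.coe_union _ _).symm
  rw [signedBijectionKernel, finsum_mem_congr (t := ↑(S'.X ∪ S'.Y)) hC (fun _ _ => rfl),
    finsum_mem_coe_finset, Finset.sum_union S'.disj, Match.ker]
  congr 1 <;> refine Finset.sum_congr rfl fun η hη => ?_
  · rw [Match.sgn, if_pos hη]
  · rw [Match.sgn, if_neg fun h => Finset.disjoint_left.1 S'.disj h hη]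

theorem Match.ker_symm (T : Match S S') (x : G) (y : H) : T.symm.ker y x = T.ker x y := by
  classical
  unfold Match.ker
  congr 1
  · refine Finset.sum_bij' (fun χ _ => T.g χ) (fun η _ => T.f η) T.inv_X T.maps_X
      (fun χ h => T.right_inv χ (mem_union_left _ h))
      (fun η h => T.left_inv η (mem_union_left _ h)) (fun χ h => ?_)
    rw [T.right_inv χ (mem_union_left _ h)]
    show ((S'.δ (T.g χ) * S.δ χ : ℤ) : ℂ) * _ * _ = _
    push_cast
    change ((S'.δ (T.g χ) : ℂ) * (S.δ χ : ℂ)) * (T.g χ : H → ℂ) y * (χ : G → ℂ) x = _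
    ring
  · refine Finset.sum_bij' (fun χ _ => T.g χ) (fun η _ => T.f η) T.inv_Y T.maps_Y
      (fun χ h => T.right_inv χ (mem_union_right _ h))
      (fun η h => T.left_inv η (mem_union_right _ h)) (fun χ h => ?_)
    rw [T.right_inv χ (mem_union_right _ h)]
    push_cast
    change ((S'.δ₀ : ℂ) * (S.δ₀ : ℂ)) * (T.g χ : H → ℂ) y * (χ : G → ℂ) x = _
    ring

theorem sign_sq {d : ℤ} (h : d = 1 ∨ d = -1) : (d : ℂ) * (d : ℂ) = 1 := by
  rcases h with rfl | rfl <;> simp

theorem Match.ker_eq_zero_left (T : Match S S') {x : G} {y : H} (hx : ¬ p ∣ orderOf x)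
    (hy : p ∣ orderOf y) : T.ker x y = 0 := by
  classical
  obtain ⟨w, hw0, -, -, hval⟩ := S'.value y hy
  obtain ⟨η₀, hη₀, -⟩ := S'.sys.surj 1 (by
    haveI : Fact (1 < p ^ a) := ⟨Nat.one_lt_pow S.a_pos hp.out.one_lt⟩
    exact one_ne_zero)
  set R : ℂ := ∑ χ ∈ S.X, (S.δ χ : ℂ) * (χ : G → ℂ) x with hR
  have hrel : ∀ η ∈ S'.Y, (S.δ₀ : ℂ) * (T.f η : G → ℂ) x = -R := fun η hη => by
    have := S.rel (T.f η) (T.maps_Y η hη) x hx
    linear_combination this
  have h1 : ∑ η ∈ S'.X, ((S.δ (T.f η) * S'.δ η : ℤ) : ℂ) * (T.f η : G → ℂ) x * (η : H → ℂ) y =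
      ∑ v, w v * R := by
    rw [← Finset.sum_mul]
    have : ∀ η ∈ S'.X, ((S.δ (T.f η) * S'.δ η : ℤ) : ℂ) * (T.f η : G → ℂ) x * (η : H → ℂ) y =
        (∑ v, w v) * ((S.δ (T.f η) : ℂ) * (T.f η : G → ℂ) x) := by
      intro η hη
      rw [hval η (mem_union_left _ hη)]
      simp only [S'.fn_of_mem_X hη, ← Finset.sum_mul]
      have := sign_sq (S'.sign η hη)
      push_cast
      linear_combination ((S.δ (T.f η) : ℂ) * (T.f η : G → ℂ) x * ∑ v, w v) * this
    rw [Finset.sum_congr rfl this, ← Finset.mul_sum]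
    congr 1
    exact Finset.sum_bij' (fun η _ => T.f η) (fun χ _ => T.g χ) T.maps_X T.inv_X
      (fun η h => T.left_inv η (mem_union_left _ h))
      (fun χ h => T.right_inv χ (mem_union_left _ h)) (fun _ _ => rfl)
  have h2 : ∑ η ∈ S'.Y, ((S.δ₀ * S'.δ₀ : ℤ) : ℂ) * (T.f η : G → ℂ) x * (η : H → ℂ) y =
      ∑ v, w v * (R * ∑ η ∈ S'.Y, orb p a e (S'.lab η * v)) := by
    have : ∀ η ∈ S'.Y, ((S.δ₀ * S'.δ₀ : ℤ) : ℂ) * (T.f η : G → ℂ) x * (η : H → ℂ) y =
        ∑ v, w v * (R * orb p a e (S'.lab η * v)) := by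
      intro η hη
      rw [hval η (mem_union_right _ hη), Finset.mul_sum]
      refine Finset.sum_congr rfl fun v _ => ?_
      rw [S'.fn_of_mem_Y hη]
      have := sign_sq S'.sign₀
      have := hrel η hη
      push_cast
      linear_combination (-(w v) * orb p a e (S'.lab η * v) * (S.δ₀ : ℂ) * (T.f η : G → ℂ) x) *
        sign_sq S'.sign₀ + (-(w v) * orb p a e (S'.lab η * v)) * this
    rw [Finset.sum_congr rfl this, Finset.sum_comm]
    simp only [Finset.mul_sum]
  rw [Match.ker, h1, h2, ← Finset.sum_add_distrib]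
  refine Finset.sum_eq_zero fun v _ => ?_
  by_cases hv : v = 0
  · rw [hv, hw0]; ring
  · rw [S'.sys.sum_orb S'.e_dvd hv]; ring

theorem Match.ker_eq_zero_right (T : Match S S') {x : G} {y : H} (hx : p ∣ orderOf x)
    (hy : ¬ p ∣ orderOf y) : T.ker x y = 0 := by
  rw [← T.ker_symm x y]
  exact T.symm.ker_eq_zero_left hy hx

/-- The orbit sums of matched labels agree. -/
theorem Match.orb_eq (T : Match S S') {η : IrrCharacter H} (h : η ∈ S'.Y) (v : ZMod (p ^ a)) :
    orb p a e (S'.lab η * v) = orb p a e (S.lab (T.f η) * v) := by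
  obtain ⟨r, hr, hlab⟩ := T.lab_eq η h
  obtain ⟨s, hs, hs'⟩ := exists_inv_exps S.e_dvd hr
  rw [hlab, orb, orb]
  refine Finset.sum_bij' (fun t _ => t * r) (fun t _ => t * s) (fun t ht => mul_mem_exps ht hr)
    (fun t ht => mul_mem_exps ht hs) (fun t _ => by rw [mul_assoc, mul_comm r s, hs', mul_one])
    (fun t _ => by rw [mul_assoc, hs', mul_one]) (fun t _ => ?_)
  congr 1
  ring

theorem Match.memLocalRing_ker_div (T : Match S S') [M.IsPrime] {x : G} {y : H}
    (hx : p ∣ orderOf x) (hy : p ∣ orderOf y) :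
    MemLocalRing M (T.ker x y / (Nat.card (Subgroup.centralizer ({x} : Set G)) : ℂ)) := by
  classical
  obtain ⟨w, -, -, hwC, hval⟩ := S.value x hx
  obtain ⟨w', -, hw', -, hval'⟩ := S'.value y hy
  have hK : T.ker x y = ∑ v, ∑ v', w v * w' v' *
      ((p : ℂ) ^ a * ((exps p a e).filter fun t => v + t * v' = 0).card) := by
    have hX : ∀ η ∈ S'.X, ((S.δ (T.f η) * S'.δ η : ℤ) : ℂ) * (T.f η : G → ℂ) x * (η : H → ℂ) y =
        ∑ v, ∑ v', w v * w' v' := by
      intro η hη
      rw [hval _ (mem_union_left _ (T.maps_X η hη)), hval' η (mem_union_left _ hη)]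
      simp only [S.fn_of_mem_X (T.maps_X η hη), S'.fn_of_mem_X hη]
      rw [mul_assoc, Finset.sum_mul_sum, Finset.mul_sum]
      refine Finset.sum_congr rfl fun v _ => ?_
      rw [Finset.mul_sum]
      refine Finset.sum_congr rfl fun v' _ => ?_
      have h1 := sign_sq (S.sign _ (T.maps_X η hη))
      have h2 := sign_sq (S'.sign η hη)
      push_cast
      linear_combination (w v * w' v' * (S'.δ η : ℂ) * (S'.δ η : ℂ)) * h1 + (w v * w' v') * h2
    have hY : ∀ η ∈ S'.Y, ((S.δ₀ * S'.δ₀ : ℤ) : ℂ) * (T.f η : G → ℂ) x * (η : H → ℂ) y =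
        ∑ v, ∑ v', w v * w' v' * (orb p a e (S.lab (T.f η) * v) * orb p a e (S.lab (T.f η) * v')) := by
      intro η hη
      rw [hval _ (mem_union_right _ (T.maps_Y η hη)), hval' η (mem_union_right _ hη)]
      simp only [S.fn_of_mem_Y (T.maps_Y η hη), S'.fn_of_mem_Y hη, T.orb_eq hη]
      rw [mul_assoc, Finset.sum_mul_sum, Finset.mul_sum]
      refine Finset.sum_congr rfl fun v _ => ?_
      rw [Finset.mul_sum]
      refine Finset.sum_congr rfl fun v' _ => ?_
      have h1 := sign_sq S.sign₀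
      have h2 := sign_sq S'.sign₀
      push_cast
      linear_combination (w v * w' v' * orb p a e (S.lab (T.f η) * v) *
        orb p a e (S.lab (T.f η) * v') * (S'.δ₀ : ℂ) * (S'.δ₀ : ℂ)) * h1 +
        (w v * w' v' * orb p a e (S.lab (T.f η) * v) * orb p a e (S.lab (T.f η) * v')) * h2
    rw [Match.ker, Finset.sum_congr rfl hX, Finset.sum_congr rfl hY, Finset.sum_const, S'.card_X,
      Finset.sum_bij' (s := S'.Y) (t := S.Y) (fun η _ => T.f η) (fun χ _ => T.g χ) T.maps_Y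
        T.inv_Y (fun η h => T.left_inv η (mem_union_right _ h))
        (fun χ h => T.right_inv χ (mem_union_right _ h))
        (g := fun χ => ∑ v, ∑ v', w v * w' v' *
          (orb p a e (S.lab χ * v) * orb p a e (S.lab χ * v'))) (fun _ _ => rfl),
      nsmul_eq_mul, Finset.mul_sum, Finset.sum_comm (s := S.Y), ← Finset.sum_add_distrib]
    refine Finset.sum_congr rfl fun v _ => ?_
    rw [Finset.sum_comm (s := S.Y), Finset.mul_sum, ← Finset.sum_add_distrib]
    refine Finset.sum_congr rfl fun v' _ => ?_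
    rw [← S.sys.sum_orb_mul S.a_pos S.e_dvd v v', ← Finset.mul_sum]
    ring
  rw [hK, Finset.sum_div]
  refine memLocalRing_sum fun v _ => ?_
  rw [Finset.sum_div]
  refine memLocalRing_sum fun v' _ => ?_
  rw [show w v * w' v' * ((p : ℂ) ^ a * ((exps p a e).filter fun t => v + t * v' = 0).card) /
      (Nat.card (Subgroup.centralizer ({x} : Set G)) : ℂ) =
    ((p : ℂ) ^ a * w v / (Nat.card (Subgroup.centralizer ({x} : Set G)) : ℂ)) *
      (w' v' * ((exps p a e).filter fun t => v + t * v' = 0).card) by ring]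
  exact memLocalRing_mul (hwC v) (memLocalRing_mul (hw' v') (memLocalRing_natCast _))

variable [Finite G] [Finite H] [M.IsPrime]

theorem Match.memLocalRing_ker_div_regular (T : Match S S') (hM : IsPModular p M) {x : G} {y : H}
    (hx : ¬ p ∣ orderOf x) (hy : ¬ p ∣ orderOf y) :
    MemLocalRing M (T.ker x y / (Nat.card (Subgroup.centralizer ({x} : Set G)) : ℂ)) := by
  classical
  set c : IrrCharacter H → ℂ := fun η =>
    (if η ∈ S'.X then ((S.δ (T.f η) * S'.δ η : ℤ) : ℂ) else ((S.δ₀ * S'.δ₀ : ℤ) : ℂ)) *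
      (η : H → ℂ) y with hc
  have hker : ∀ g : G, T.ker g y = ∑ η ∈ S'.X ∪ S'.Y, c η * (T.f η : G → ℂ) g := by
    intro g
    rw [Finset.sum_union S'.disj, Match.ker]
    congr 1 <;> refine Finset.sum_congr rfl fun η hη => ?_
    · simp only [hc, if_pos hη]; ring
    · simp only [hc, if_neg fun h => Finset.disjoint_left.1 S'.disj h hη]; ring
  rw [hker]
  refine memLocalRing_div_centralizer hM _ c (fun η => (T.f η : G → ℂ)) (fun η _ => ?_)
    (fun η _ => CharTheory.IsIrrCharacter.isCharacter (T.f η).2) (fun g hg => ?_) hx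
  · refine memLocalRing_mul ?_
      (memLocalRing_of_isIntegral (CharTheory.IsCharacter.isIntegral (CharTheory.IsIrrCharacter.isCharacter η.2) y))
    split_ifs <;> exact memLocalRing_intCast _
  · rw [← hker]
    exact T.ker_eq_zero_right hg hy

/-- Blocks of the same shape are perfectly isometric. -/
theorem Match.isPerfectIsometry (T : Match S S') (hM : IsPModular p M) :
    IsPerfectIsometry p M C B T.f T.sgn := by
  classical
  refine ⟨?_, ?_, ?_⟩
  · have hC : ∀ η, η ∈ C ↔ η ∈ S'.X ∪ S'.Y := fun η => by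
      rw [mem_union, ← Finset.mem_coe, ← Finset.mem_coe, ← Set.mem_union]
      exact Set.ext_iff.1 S'.union η
    have hB : ∀ χ, χ ∈ B ↔ χ ∈ S.X ∪ S.Y := fun χ => by
      rw [mem_union, ← Finset.mem_coe, ← Finset.mem_coe, ← Set.mem_union]
      exact Set.ext_iff.1 S.union χ
    refine Set.BijOn.mk (fun η hη => ?_) ?_ ?_
    · rcases mem_union.1 ((hC η).1 hη) with h | h
      · exact (hB _).2 (mem_union_left _ (T.maps_X η h))
      · exact (hB _).2 (mem_union_right _ (T.maps_Y η h))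
    · intro η hη η' hη' h
      rw [← T.left_inv η ((hC η).1 hη), h, T.left_inv η' ((hC η').1 hη')]
    · intro χ hχ
      refine ⟨T.g χ, ?_, T.right_inv χ ((hB χ).1 hχ)⟩
      rcases mem_union.1 ((hB χ).1 hχ) with h | h
      · exact (hC _).2 (mem_union_left _ (T.inv_X χ h))
      · exact (hC _).2 (mem_union_right _ (T.inv_Y χ h))
  · intro η _
    rw [Match.sgn]
    split_ifs with h
    · rcases S.sign _ (T.maps_X η h) with h1 | h1 <;> rcases S'.sign η h with h2 | h2 <;>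
        simp [h1, h2]
    · rcases S.sign₀ with h1 | h1 <;> rcases S'.sign₀ with h2 | h2 <;> simp [h1, h2]
  · intro x y
    simp only [T.kernel_eq, IsPRegular]
    by_cases hx : p ∣ orderOf x <;> by_cases hy : p ∣ orderOf y
    · refine ⟨T.memLocalRing_ker_div hx hy, ?_, Or.inl (by simp [hx, hy])⟩
      rw [← T.ker_symm x y]
      exact T.symm.memLocalRing_ker_div hy hx
    · have h0 := T.ker_eq_zero_right hx hy
      exact ⟨by rw [h0, zero_div]; simpa using memLocalRing_intCast (M := M) 0,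
        by rw [h0, zero_div]; simpa using memLocalRing_intCast (M := M) 0, Or.inr h0⟩
    · have h0 := T.ker_eq_zero_left hx hy
      exact ⟨by rw [h0, zero_div]; simpa using memLocalRing_intCast (M := M) 0,
        by rw [h0, zero_div]; simpa using memLocalRing_intCast (M := M) 0, Or.inr h0⟩
    · refine ⟨T.memLocalRing_ker_div_regular hM hx hy, ?_, Or.inl (by simp [hx, hy])⟩
      rw [← T.ker_symm x y]
      exact T.symm.memLocalRing_ker_div_regular hM hy hx

/-- Signs agree on the exceptional characters. -/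
theorem Match.sgn_eq (T : Match S S') {η η' : IrrCharacter H} (h : η ∈ S'.Y) (h' : η' ∈ S'.Y) :
    T.sgn η = T.sgn η' := by
  classical
  rw [Match.sgn, Match.sgn, if_neg fun k => Finset.disjoint_left.1 S'.disj k h,
    if_neg fun k => Finset.disjoint_left.1 S'.disj k h']

end CfsgLib.Frobenius.CycShape
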