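import Cfsg.Agent.Lib.Jordan.CyclicDefect.Data
import Cfsg.Agent.Lib.Frobenius.CycShape.Shape

/-!
# The shape of a block from its cyclic defect data
-/

set_option autoImplicit false
set_option linter.unusedSectionVars false
set_option linter.style.haveILetI false

noncomputable section

namespace CfsgLib.Frobenius.CycShape

open Cfsg Finset CfsgLib.Blocks CfsgLib.BrauerPairs CfsgLib.BlockStar CfsgLib.Jordan.CyclicDefect
open scoped Classical

variable {G : Type*} [Group G] [Fintype G] {p : ℕ} [hp : Fact p.Prime] {M : Ideal AlgInt}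
  [M.IsPrime] {B : Set (IrrCharacter G)} {D : Subgroup G} {e0 : MonoidAlgebra (Res M) G}
  {a e : ℕ} [NeZero (p ^ a)]

/-- A coordinate on a cyclic group of order `p ^ a`. -/
theorem exists_coord (hcyc : IsCyclic D) (hcard : Nat.card D = p ^ a) :
    ∃ d : D, orderOf d = p ^ a ∧ ∀ x : D, ∃ v : ZMod (p ^ a), x = d ^ v.val := by
  obtain ⟨d, hd⟩ := IsCyclic.exists_generator (α := D)
  have hord : orderOf d = p ^ a := by rw [orderOf_eq_card_of_forall_mem_zpowers hd, hcard]
  refine ⟨d, hord, fun x => ?_⟩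
  obtain ⟨k, hk⟩ := mem_powers_iff_mem_zpowers.2 (hd x)
  refine ⟨(k : ZMod (p ^ a)), ?_⟩
  rw [ZMod.val_natCast, ← hk]
  show d ^ k = d ^ (k % p ^ a)
  rw [← pow_mod_orderOf, hord]

omit hp in
theorem stdAddChar_mul (k v : ZMod (p ^ a)) :
    ZMod.stdAddChar (k * v) = (ZMod.stdAddChar k : ℂ) ^ v.val := by
  rw [← AddChar.map_nsmul_eq_pow]
  congr 1
  rw [nsmul_eq_mul, ZMod.natCast_zmod_val, mul_comm]

theorem exists_log {z : ℂ} (hz : z ^ (p ^ a) = 1) :
    ∃ k : ZMod (p ^ a), ZMod.stdAddChar k = z := by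
  have hord : orderOf (ZMod.stdAddChar (1 : ZMod (p ^ a)) : ℂ) = p ^ a := by
    refine Nat.dvd_antisymm (orderOf_dvd_of_pow_eq_one ?_) ?_
    · rw [← AddChar.map_nsmul_eq_pow, nsmul_eq_mul, ZMod.natCast_self, zero_mul,
        AddChar.map_zero_eq_one]
    · have h1 := pow_orderOf_eq_one (ZMod.stdAddChar (1 : ZMod (p ^ a)) : ℂ)
      rw [← AddChar.map_nsmul_eq_pow, ← AddChar.map_zero_eq_one (ZMod.stdAddChar (N := p ^ a))] at h1
      have h2 := ZMod.injective_stdAddChar h1
      rw [nsmul_eq_mul, mul_one] at h2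
      exact (CharP.cast_eq_zero_iff (ZMod (p ^ a)) (p ^ a) _).1 h2
  have hprim : IsPrimitiveRoot (ZMod.stdAddChar (1 : ZMod (p ^ a)) : ℂ) (p ^ a) :=
    IsPrimitiveRoot.iff_orderOf.2 hord
  obtain ⟨i, -, hi⟩ := hprim.eq_pow_of_pow_eq_one hz
  refine ⟨(i : ZMod (p ^ a)), ?_⟩
  rw [← hi, ← AddChar.map_nsmul_eq_pow, nsmul_eq_mul, mul_one]

/-- The shape of a block with cyclic defect data. -/
theorem nonempty_shape (S : CycData p M B D e0 a e) :
    ∃ T : Shape p a e M B, (↑T.Y : Set (IrrCharacter G)) = S.Y := by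
  haveI := CfsgLib.CharTheory.finite_irrCharacter (G := G)
  haveI : Fintype (IrrCharacter G) := Fintype.ofFinite _
  obtain ⟨d, hord, hlog⟩ := exists_coord S.cyclic S.card_D
  have hN : (p ^ a) ≠ 0 := NeZero.ne _
  have hlab : ∀ l : D →* ℂˣ, ∃ k : ZMod (p ^ a), ZMod.stdAddChar k = ((l d : ℂˣ) : ℂ) := by
    intro l
    refine exists_log ?_
    rw [← Units.val_pow_eq_pow_val, ← map_pow, ← hord, pow_orderOf_eq_one, map_one, Units.val_one]
  choose logc hlogc using hlab
  have hl_eq : ∀ (l : D →* ℂˣ) (v : ZMod (p ^ a)),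
      ((l (d ^ v.val) : ℂˣ) : ℂ) = ZMod.stdAddChar (logc l * v) := fun l v => by
    rw [stdAddChar_mul, hlogc, map_pow, Units.val_pow_eq_pow_val]
  have hl_inj : ∀ l l' : D →* ℂˣ, logc l = logc l' → l = l' := fun l l' h => by
    ext x
    obtain ⟨v, rfl⟩ := hlog x
    rw [hl_eq, hl_eq, h]
  have hl_pow : ∀ (l : D →* ℂˣ) (r : ZMod (p ^ a)), logc (l ^ r.val) = r * logc l := fun l r => by
    refine ZMod.injective_stdAddChar ?_
    rw [hlogc, mul_comm, stdAddChar_mul, hlogc, MonoidHom.pow_apply, Units.val_pow_eq_pow_val]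
  set X : Finset (IrrCharacter G) := Finset.univ.filter (· ∈ S.X) with hX
  set Y : Finset (IrrCharacter G) := Finset.univ.filter (· ∈ S.Y) with hY
  set lab : IrrCharacter G → ZMod (p ^ a) := fun ψ => logc (S.lam ψ) with hlab'
  have hexp : expSet p a e = exps p a e := rfl
  have hmemX : ∀ χ, χ ∈ X ↔ χ ∈ S.X := fun χ => by simp [hX]
  have hmemY : ∀ χ, χ ∈ Y ↔ χ ∈ S.Y := fun χ => by simp [hY]
  have hsys : OrbitSys p a e Y lab := by
    refine ⟨fun ψ hψ h => ?_, fun k hk => ?_, ?_⟩
    · refine S.lam_ne ψ ((hmemY ψ).1 hψ) ?_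
      ext x
      obtain ⟨v, rfl⟩ := hlog x
      rw [hl_eq, show logc (S.lam ψ) = 0 from h, zero_mul, AddChar.map_zero_eq_one,
        MonoidHom.one_apply, Units.val_one]
    · -- the linear character with logarithm `k`
      let z : ℂˣ := Units.mk0 (ZMod.stdAddChar k) (by
        intro h
        have h1 : ZMod.stdAddChar (k + -k) = (1 : ℂ) := by rw [add_neg_cancel, AddChar.map_zero_eq_one]
        rw [AddChar.map_add_eq_mul, h, zero_mul] at h1
        exact zero_ne_one h1)
      have hzN : z ^ (p ^ a) = 1 := Units.ext (by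
        rw [Units.val_pow_eq_pow_val, Units.val_mk0, ← AddChar.map_nsmul_eq_pow, nsmul_eq_mul,
          ZMod.natCast_self, zero_mul, AddChar.map_zero_eq_one, Units.val_one])
      let l : D →* ℂˣ := monoidHomOfForallMemZpowers (g := d) (g' := z)
        (fun x => by
          obtain ⟨v, rfl⟩ := hlog x
          exact Subgroup.pow_mem _ (Subgroup.mem_zpowers d) _)
        (by rw [hord]; exact orderOf_dvd_of_pow_eq_one hzN)
      have hlk : logc l = k := ZMod.injective_stdAddChar (by
        rw [hlogc]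
        show ((l d : ℂˣ) : ℂ) = _
        rw [monoidHomOfForallMemZpowers_apply_gen]
        rfl)
      have hl1 : l ≠ 1 := fun h => hk (by
        rw [← hlk]
        refine ZMod.injective_stdAddChar ?_
        rw [hlogc, h, AddChar.map_zero_eq_one, MonoidHom.one_apply, Units.val_one])
      obtain ⟨ψ, hψ, r, hr, hlr⟩ := S.lam_exists l hl1
      exact ⟨ψ, (hmemY ψ).2 hψ, r, hexp ▸ hr, by rw [hlab']; dsimp only; rw [hlr, hl_pow, hlk]⟩
    · rintro ψ hψ ψ' hψ' ⟨r, hr, h⟩
      refine S.lam_inj ψ ((hmemY ψ).1 hψ) ψ' ((hmemY ψ').1 hψ') ⟨r, hexp ▸ hr, hl_inj _ _ ?_⟩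
      rw [hl_pow]; exact h
  refine ⟨⟨X, Y, S.δ, S.δ₀, lab, S.e_dvd, by have := S.a_pos; omega, ?_, ?_, ?_, ?_, S.sign₀, hsys,
    ?_, ?_⟩, by ext χ; simp [hY]⟩
  · rw [S.union]; ext χ; simp [hX, hY]
  · rw [Finset.disjoint_left]
    intro χ h h'
    exact Set.disjoint_left.1 S.disj ((hmemX χ).1 h) ((hmemY χ).1 h')
  · rw [← S.card_X, Nat.card_eq_fintype_card, Fintype.card_subtype, hX]
  · exact fun χ h => S.sign χ ((hmemX χ).1 h)
  · intro ψ hψ g hg
    have := S.rel ψ ((hmemY ψ).1 hψ) g hg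
    rwa [show S.X = (↑X : Set _) by ext χ; simp [hX], finsum_mem_coe_finset] at this
  · intro g hg
    set u := ppart p g with hu
    let sel : MonoidAlgebra (Res M) G → Option (ZMod (p ^ a)) := fun c =>
      if h : ∃ x : G, PairLE p (⊤ : Subgroup G) (Subgroup.zpowers (x * u * x⁻¹)) (conjA x c) D e0
      then some (hlog ⟨h.choose * u * h.choose⁻¹,
        PairLE.le h.choose_spec (Subgroup.mem_zpowers _)⟩).choose
      else none
    have hval : ∀ χ ∈ B, ∀ c : MonoidAlgebra (Res M) G,
        LamF p D e0 (S.fn χ) u c =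
          (sel c).elim 0 fun v => shapeFn p a e X S.δ S.δ₀ lab χ v := by
      intro χ _ c
      simp only [sel, LamF]
      split_ifs with h
      · simp only [Option.elim_some]
        have hm : h.choose * u * h.choose⁻¹ ∈ D := PairLE.le h.choose_spec (Subgroup.mem_zpowers _)
        have hv := (hlog ⟨_, hm⟩).choose_spec
        set v := (hlog ⟨_, hm⟩).choose
        rw [CycData.fn, shapeFn]
        by_cases hχ : χ ∈ S.X
        · rw [if_pos hχ, if_pos ((hmemX χ).2 hχ)]
        · rw [if_neg hχ, if_neg (fun h' => hχ ((hmemX χ).1 h')), CfsgLib.Jordan.CyclicDefect.orbSum, dif_pos hm, hexp, orb]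
          congr 1
          refine Finset.sum_congr rfl fun r _ => ?_
          rw [hv, hl_eq, mul_comm r, stdAddChar_mul (lab χ * v) r]
      · rfl
    have hu1 : u ≠ 1 := fun h => by
      obtain ⟨y, hy, -, -, hy'⟩ := ppart_spec (p := p) g
      rw [← hu, h, one_mul] at hy
      exact hy' (hy ▸ hg)
    refine ⟨fun v => ∑ c ∈ (blocksAt M u).filter (fun c => sel c = some v), S.Ω g c, ?_, fun v =>
      memLocalRing_sum fun c _ => S.mem_Ω g hg c, fun v => ?_, fun χ hχ => ?_⟩
    · refine Finset.sum_eq_zero fun c hc => absurd (mem_filter.1 hc).2 ?_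
      simp only [sel]
      split_ifs with h
      · intro h0
        have hm : h.choose * u * h.choose⁻¹ ∈ D := PairLE.le h.choose_spec (Subgroup.mem_zpowers _)
        have hv := congrArg Subtype.val (hlog ⟨_, hm⟩).choose_spec
        rw [Option.some.inj h0, ZMod.val_zero, pow_zero] at hv
        exact hu1 (by
          have h2 : h.choose * u * h.choose⁻¹ = 1 := by simpa using hv
          simpa using h2)
      · simp
    · rw [Finset.mul_sum, Finset.sum_div]
      exact memLocalRing_sum fun c _ => S.dvd_Ω g hg c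
    · have hχB : χ ∈ B := by
        rw [S.union]
        rcases (@Finset.mem_union _ (_) _ _ _).1 hχ with h | h
        · exact Or.inl ((hmemX χ).1 h)
        · exact Or.inr ((hmemY χ).1 h)
      rw [S.value χ hχB g hg]
      show ∑ c ∈ blocksAt M u, LamF p D e0 (S.fn χ) u c * S.Ω g c = _
      rw [Finset.sum_congr rfl fun c _ => by rw [hval χ hχB c]]
      simp only [Finset.sum_mul, Finset.sum_filter]
      rw [Finset.sum_comm]
      refine Finset.sum_congr rfl fun c _ => ?_
      rcases hs : sel c with _ | v0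
      · simp
      · rw [Finset.sum_eq_single v0]
        · simp [mul_comm]
        · intro v _ hv
          rw [if_neg (fun h => hv (Option.some.inj h).symm), zero_mul]
        · simp

end CfsgLib.Frobenius.CycShape
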