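import Cfsg.Agent.Lib.Frobenius.CycShape.OrderFourShape
import Cfsg.Agent.Lib.BrauerPairs.AbelianDefect
import Cfsg.Agent.Lib.BrauerPairs.BridgeDefect

/-!
# A block with a four-group as defect group and its Brauer correspondent
-/

set_option autoImplicit false
set_option linter.style.haveILetI false
set_option linter.unusedSectionVars false

noncomputable section

namespace CfsgLib.Frobenius.CycShape

open Cfsg CfsgLib.Blocks CfsgLib.BrauerPairs

universe u

variable {G : Type u} [Group G] [Finite G] {M : Ideal AlgInt} [M.IsPrime]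

theorem isometry_klein (hM : IsPModular 2 M) {B : Set (IrrCharacter G)} (hB : IsPBlock M B)
    {P : Subgroup G} (hPD : IsDefectGroup 2 M B P) (hV : IsKleinFour P)
    {c : Set (IrrCharacter (Subgroup.normalizer (P : Set G)))}
    (hcD : IsDefectGroup 2 M c (P.subgroupOf (Subgroup.normalizer (P : Set G))))
    (hc : IsInducedBlock M (Subgroup.normalizer (P : Set G)) c B) :
    ∃ (I : IrrCharacter (Subgroup.normalizer (P : Set G)) → IrrCharacter G)
      (ε : IrrCharacter (Subgroup.normalizer (P : Set G)) → ℤ),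
      IsPerfectIsometry 2 M c B I ε := by
  classical
  haveI : Fact (Nat.Prime 2) := ⟨Nat.prime_two⟩
  haveI : M.IsMaximal := hM.2.1
  haveI : CharP (Res M) 2 := charP_res hM
  haveI : IsAlgClosed (Res M) := isAlgClosed_res
  haveI := Fintype.ofFinite G
  have h4 : Nat.card P = 4 := hV.card_four
  have hexp : ∀ v ∈ P, v * v = 1 := fun v hv => by
    have h : (⟨v, hv⟩ : P) * ⟨v, hv⟩ = 1 := by
      have := Monoid.pow_exponent_eq_one (⟨v, hv⟩ : P)
      rw [hV.exponent_two, pow_two] at this
      exact this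
    exact congrArg Subtype.val h
  have hab : ∀ x ∈ P, ∀ y ∈ P, x * y = y * x := fun x hx y hy =>
    congrArg Subtype.val (mul_comm_of_exponent_two hV.exponent_two (⟨x, hx⟩ : P) ⟨y, hy⟩)
  have hP : IsPGroup 2 P := ((isDefectGroup_iff hM hB).1 hPD).2.1
  have hPC : P ≤ Subgroup.centralizer (P : Set G) := fun u hu =>
    Subgroup.mem_centralizer_iff.2 fun w hw => hab w hw u hu
  obtain ⟨H, hH⟩ : ∃ H, H = Subgroup.normalizer (P : Set G) := ⟨_, rfl⟩
  revert c
  rw [← hH]
  intro c hcD hc
  haveI : Fintype H := Fintype.ofFinite H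
  have hPH : P ≤ H := hH ▸ Subgroup.le_normalizer
  have hCH : Subgroup.centralizer (P : Set G) ≤ H := hH ▸ Subgroup.centralizer_le_normalizer _
  have hPc := (isInducedBlock_iff hM hP hPH hH.le hCH hc.1 hB).1 hc
  -- a maximal pair of `c`, seen in `G`
  have hbH := isBlockIdem_redElem_blockCoeff (M := M) hc.1
  obtain ⟨e₁, he₁⟩ := exists_isMaxPair_of_isDefectIn hbH ((isDefectGroup_iff hM hc.1).1 hcD)
  have hmapP : (P.subgroupOf H).map H.subtype = P := by
    rw [Subgroup.subgroupOf_map_subtype, inf_eq_left.2 hPH]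
  have hpairH : PairOf 2 H (subIdem M H c) P (mapG H.subtype e₁) := by
    have h := (pairOf_mapG_iff (φ := H.subtype) H.subtype_injective).2 he₁.1
    rw [map_top_subtype, hmapP, ← redElem_subgroupBlockCoeff] at h
    exact h
  have hcen : cenIn H P = Subgroup.centralizer (P : Set G) := inf_eq_right.2 hCH
  have hidem : IsBlockIdem (Subgroup.centralizer (P : Set G)) (mapG H.subtype e₁) :=
    isBlockIdem_congr hcen hpairH.1.2.2
  obtain ⟨c₀, hc₀, hc₀e⟩ := exists_isPBlock_subIdem (M := M) hidem
  have heB := isBlockIdem_redElem_blockCoeff (M := M) hB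
  have hPfix : brau P (redElem M (blockCoeff B)) ∈ fixedBy (Res M) P :=
    trunc_mem_fixedBy (fun x hx => normalizer_le_normalizer_cen P (hH.le (hPH hx)))
      (heB.fixed_of_le le_top)
  have hcfix : subIdem M H c ∈ fixedBy (Res M) P := (isBlockIdem_subIdem hc.1).fixed_of_le hPH
  have hbr : brau P (redElem M (blockCoeff B)) * mapG H.subtype e₁ = mapG H.subtype e₁ := by
    calc brau P (redElem M (blockCoeff B)) * mapG H.subtype e₁
        = brau P (redElem M (blockCoeff B)) * (brau P (subIdem M H c) * mapG H.subtype e₁) := by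
          rw [hpairH.2]
      _ = brau P (brau P (redElem M (blockCoeff B)) * subIdem M H c) * mapG H.subtype e₁ := by
          rw [show brau P (brau P (redElem M (blockCoeff B)) * subIdem M H c) =
              brau P (brau P (redElem M (blockCoeff B))) * brau P (subIdem M H c) from
            trunc_centralizer_mul hP hPfix hcfix, brau_brau_of_le le_rfl, mul_assoc]
      _ = mapG H.subtype e₁ := by rw [hPc, hpairH.2]
  have hc₀B : IsInducedBlock M (Subgroup.centralizer (P : Set G)) c₀ B :=
    (isInducedBlock_iff hM hP hPC (Subgroup.centralizer_le_normalizer _) le_rfl hc₀ hB).2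
      (by rw [hc₀e]; exact hbr)
  have hmax := BrauerPairs.isMaxPair_of_induced hM hB hPD hab hc₀B
  rw [hc₀e] at hmax
  have h4' : Nat.card (P.subgroupOf H) = 4 := by
    rw [Nat.card_congr (Subgroup.subgroupOfEquivOfLe hPH).toEquiv, h4]
  have hab' : ∀ x ∈ P.subgroupOf H, ∀ y ∈ P.subgroupOf H, x * y = y * x := fun x hx y hy =>
    Subtype.ext (hab x hx y hy)
  have hexp' : ∀ v ∈ P.subgroupOf H, v * v = 1 := fun v hv => Subtype.ext (hexp v hv)
  have hiff : ∀ (x : G) (hx : x ∈ H),
      (⟨x, hx⟩ : H) ∈ pairStab (⊤ : Subgroup H) (P.subgroupOf H) e₁ ↔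
        x ∈ pairStab (⊤ : Subgroup G) P (mapG H.subtype e₁) := fun x hx => by
    rw [← mem_pairStab_map_iff (φ := H.subtype) H.subtype_injective, map_top_subtype, hmapP,
      mem_pairStab, mem_pairStab]
    simp [hx]
  have hciff : ∀ x : H, x ∈ Subgroup.centralizer ((P.subgroupOf H : Subgroup H) : Set H) ↔
      (x : G) ∈ Subgroup.centralizer (P : Set G) := fun x => by
    simp only [Subgroup.mem_centralizer_iff]
    constructor
    · intro h w hw
      exact congrArg Subtype.val (h ⟨w, hPH hw⟩ hw)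
    · intro h w hw
      exact Subtype.ext (h w hw)
  by_cases htriv : ∀ t ∈ pairStab (⊤ : Subgroup G) P (mapG H.subtype e₁),
      t ∈ Subgroup.centralizer (P : Set G)
  · obtain ⟨S⟩ := exists_signShape_three hM hB hmax h4 hab hexp htriv
    obtain ⟨S'⟩ := exists_signShape_three hM hc.1 he₁ h4' hab' hexp' fun t ht =>
      (hciff t).2 (htriv t ((hiff t t.2).1 ht))
    obtain ⟨T⟩ := exists_signMatch_three S S'
    exact ⟨T.f, T.ε, T.isPerfectIsometry hM⟩
  · push Not at htriv
    obtain ⟨t, ht, htC⟩ := htriv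
    have htH : t ∈ H := hH ▸ (mem_pairStab.1 ht).2.1
    obtain ⟨S⟩ := exists_signShape_one hM hB hmax h4 hab hexp ht htC
    obtain ⟨S'⟩ := exists_signShape_one hM hc.1 he₁ h4' hab' hexp' ((hiff t htH).2 ht)
      (fun h => htC ((hciff ⟨t, htH⟩).1 h))
    obtain ⟨T⟩ := exists_signMatch_one S S'
    exact ⟨T.f, T.ε, T.isPerfectIsometry hM⟩

end CfsgLib.Frobenius.CycShape
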