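import Cfsg.Agent.Lib.Jordan.CyclicDefect.Family
import Cfsg.Agent.Lib.BlockSections.OrderFour
import Cfsg.Agent.Lib.Frobenius.CycShape.RegularDvd

/-!
# The sections of a block with a defect group of order four

At a non-trivial element of the defect group the block below the maximal pair is nilpotent, its
characters agree on the regular elements, and four times their common value is divisible by the
orders of the centralizers.
-/

set_option autoImplicit false
set_option linter.style.haveILetI false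
set_option linter.unusedSectionVars false

noncomputable section

namespace CfsgLib.Frobenius.CycShape

open Cfsg CfsgLib.Blocks MonoidAlgebra CfsgLib.BrauerPairs CfsgLib.BlockStar CfsgLib.BlockSections
open CfsgLib.Jordan.CyclicDefect
open CfsgLib.BrauerCharacters (cenElem commute_cenElem centralVal_spec centralVal blockFinset
  mem_blockFinset)
open scoped ComplexConjugate

/-- The characters of a nilpotent block with abelian defect group agree on the regular
elements. -/
theorem regular_eq_of_nilpotent {C : Type*} [Group C] [Finite C] {M : Ideal AlgInt} [M.IsPrime]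
    {p : ℕ} [Fact p.Prime] [CharP (Res M) p] [IsAlgClosed (Res M)] (hM : IsPModular p M)
    {b : Set (IrrCharacter C)} (hnil : IsNilpotentBlock p M b) {Q : Subgroup C}
    (hQ : IsDefectGroup p M b Q) (hab : ∀ x ∈ Q, ∀ y ∈ Q, x * y = y * x) {ξ η : IrrCharacter C}
    (hξ : ξ ∈ b) (hη : η ∈ b) {s : C} (hs : ¬ p ∣ orderOf s) :
    (η : C → ℂ) s = (ξ : C → ℂ) s := by
  haveI := Fintype.ofFinite C
  obtain ⟨hb, hnil'⟩ := (isNilpotentBlock_iff hM).1 hnil
  obtain ⟨e', he'⟩ := exists_isMaxPair_of_isDefectIn (isBlockIdem_redElem_blockCoeff (M := M) hb)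
    ((isDefectGroup_iff hM hb).1 hQ)
  have H : AbNilp p M b Q e' := ⟨hM, hb, he', hnil', hab⟩
  obtain ⟨l, rfl⟩ := H.exists_th_eq hξ hη
  exact H.th_regular hξ l hs

variable {G : Type*} [Group G] [Fintype G] {M : Ideal AlgInt} [M.IsPrime]
  [CharP (Res M) 2] [IsAlgClosed (Res M)] {B : Set (IrrCharacter G)}
  {P : Subgroup G} {e0 : MonoidAlgebra (Res M) G}
  (hM : IsPModular 2 M) (hB : IsPBlock M B)
  (hmax : IsMaxPair 2 (⊤ : Subgroup G) (redElem M (blockCoeff B)) P e0)
  (h4 : Nat.card P = 4) (hab : ∀ x ∈ P, ∀ y ∈ P, x * y = y * x)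

include hM hB hmax h4 hab

theorem free_of_order_four {t u : G} (ht : t ∈ pairStab (⊤ : Subgroup G) P e0) (hu : u ∈ P)
    (hu1 : u ≠ 1) (hfix : t * u * t⁻¹ = u) : t ∈ Subgroup.centralizer (P : Set G) := by
  haveI : Fact (Nat.Prime 2) := ⟨Nat.prime_two⟩
  exact mem_centralizer_of_sq hM hB hmax rfl hab ht
    (mul_self_mem_centralizer_of_card_four h4 (mem_pairStab.1 ht).2.1 hu hu1 hfix)

theorem local_data {u : G} (hu : u ∈ P) (hu1 : u ≠ 1) :
    haveI : Fact (Nat.Prime 2) := ⟨Nat.prime_two⟩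
    IsNilpotentBlock 2 M (belowBlock (M := M) 2 P e0 u) ∧
      IsDefectGroup 2 M (belowBlock (M := M) 2 P e0 u)
        (P.subgroupOf (Subgroup.centralizer ({u} : Set G))) := by
  classical
  haveI : Fact (Nat.Prime 2) := ⟨Nat.prime_two⟩
  have hb := isBlockIdem_redElem_blockCoeff (M := M) hB
  obtain ⟨hbl, hle, -⟩ := belowBlock_spec hM hB hmax hu
  revert hbl hle
  generalize belowBlock (M := M) 2 P e0 u = b
  intro hbl hle
  have hPN : P ≤ Subgroup.normalizer (Subgroup.zpowers u : Set G) :=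
    le_trans (fun a ha => Subgroup.mem_centralizer_iff.2 fun w hw => hab w (hle.le hw) a ha)
      (Subgroup.centralizer_le_normalizer _)
  obtain ⟨e', hn, hle'⟩ := hle.normalLE_of_le_normalizer hmax.1.1 hle.le le_rfl hPN
  rw [(existsUnique_pairLE hmax.1.1 le_rfl).unique hle' (PairLE.refl _ _ _ _)] at hn
  have hm := hmax.local_of_abelian hb hab hn
  rw [cenIn_top, BrauerCharacters.centralizer_zpowers_eq] at hm
  generalize hCdef : Subgroup.centralizer ({u} : Set G) = C at b hbl hm
  have hbi : IsBlockIdem C (subIdem M C b) := isBlockIdem_subIdem hbl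
  have hPC : P ≤ C := hm.1.1.2.1
  refine ⟨(isNilpotentBlock_sub_iff hM).2 ⟨hbl, (hm.isNilp_iff_of_abelian hbi hab).2 fun t ht => ?_⟩,
    ?_⟩
  · obtain ⟨htC, htN, hte⟩ := mem_pairStab.1 ht
    refine free_of_order_four hM hB hmax h4 hab
      (mem_pairStab.2 ⟨Subgroup.mem_top t, htN, hte⟩) hu hu1 ?_
    have htu : t ∈ Subgroup.centralizer ({u} : Set G) := hCdef.symm ▸ htC
    rw [Subgroup.mem_centralizer_singleton_iff.1 htu, mul_inv_cancel_right]
  · rw [isDefectGroup_sub_iff hM hbl, Subgroup.map_subgroupOf_eq_of_le hPC]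
    exact hm.isDefectIn hbi

theorem local_regular_eq {u : G} (hu : u ∈ P) (hu1 : u ≠ 1)
    {ξ η : IrrCharacter (Subgroup.centralizer ({u} : Set G))}
    (hξ : ξ ∈ belowBlock (M := M) 2 P e0 u) (hη : η ∈ belowBlock (M := M) 2 P e0 u)
    {s : Subgroup.centralizer ({u} : Set G)} (hs : ¬ 2 ∣ orderOf s) :
    (η : Subgroup.centralizer ({u} : Set G) → ℂ) s =
      (ξ : Subgroup.centralizer ({u} : Set G) → ℂ) s := by
  haveI : Fact (Nat.Prime 2) := ⟨Nat.prime_two⟩
  obtain ⟨hnil, hD⟩ := local_data hM hB hmax h4 hab hu hu1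
  exact regular_eq_of_nilpotent hM hnil hD
    (fun x hx y hy => Subtype.ext (hab x hx y hy)) hξ hη hs

theorem local_card {u : G} (hu : u ∈ P) (hu1 : u ≠ 1) :
    Nat.card (belowBlock (M := M) 2 P e0 u) = 4 ∧ blockRank 2 (belowBlock (M := M) 2 P e0 u) = 1 := by
  haveI : Fact (Nat.Prime 2) := ⟨Nat.prime_two⟩
  obtain ⟨hnil, hD⟩ := local_data hM hB hmax h4 hab hu hu1
  obtain ⟨h1, h2, -⟩ := blockRank_eq_one_of_nilpotent_abelian hM hnil hD
    (fun x hx y hy => Subtype.ext (hab x hx y hy))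
  have hPC : P ≤ Subgroup.centralizer ({u} : Set G) := fun a ha =>
    Subgroup.mem_centralizer_singleton_iff.2 (hab a ha u hu)
  refine ⟨?_, h1⟩
  rw [h2, Nat.card_congr (Subgroup.subgroupOfEquivOfLe hPC).toEquiv, h4]

omit hM hB hmax h4 hab [CharP (Res M) 2] [IsAlgClosed (Res M)] [M.IsPrime] in
theorem card_centralizer_mul {u : G} (s : Subgroup.centralizer ({u} : Set G))
    (hu : ∃ k : ℕ, orderOf u = 2 ^ k) (hs : ¬ 2 ∣ orderOf s) :
    Nat.card (Subgroup.centralizer ({u * (s : G)} : Set G)) =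
      Nat.card (Subgroup.centralizer ({s} : Set (Subgroup.centralizer ({u} : Set G)))) := by
  haveI : Fact (Nat.Prime 2) := ⟨Nat.prime_two⟩
  have hus : u * (s : G) = (s : G) * u := (Subgroup.mem_centralizer_singleton_iff.1 s.2).symm
  have hpp : ppart 2 (u * (s : G)) = u :=
    ppart_eq ⟨(s : G), rfl, hus, hu, by rwa [Subgroup.orderOf_coe]⟩
  have h1 : ∀ z : G, z ∈ Subgroup.centralizer ({u * (s : G)} : Set G) →
      z ∈ Subgroup.centralizer ({u} : Set G) ∧ z * (s : G) = (s : G) * z := by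
    intro z hz
    have hz' := Subgroup.mem_centralizer_singleton_iff.1 hz
    have hc := ppart_conj (p := 2) z (u * (s : G))
    rw [show z * (u * (s : G)) * z⁻¹ = u * (s : G) by rw [hz', mul_inv_cancel_right], hpp] at hc
    have hzu : z * u = u * z := by
      conv_rhs => rw [hc]
      group
    refine ⟨Subgroup.mem_centralizer_singleton_iff.2 hzu, ?_⟩
    calc z * (s : G) = u⁻¹ * (u * z) * (s : G) := by group
      _ = u⁻¹ * (z * u) * (s : G) := by rw [hzu]
      _ = u⁻¹ * (u * (s : G) * z) := by rw [← hz']; group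
      _ = (s : G) * z := by group
  refine Nat.card_congr
    { toFun := fun z => ⟨⟨(z : G), (h1 _ z.2).1⟩,
        Subgroup.mem_centralizer_singleton_iff.2 (Subtype.ext (h1 _ z.2).2)⟩
      invFun := fun z => ⟨((z : Subgroup.centralizer ({u} : Set G)) : G), ?_⟩
      left_inv := fun z => rfl
      right_inv := fun z => rfl }
  have hzs := congrArg Subtype.val (Subgroup.mem_centralizer_singleton_iff.1 z.2)
  have hzu := Subgroup.mem_centralizer_singleton_iff.1 (z : Subgroup.centralizer ({u} : Set G)).2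
  refine Subgroup.mem_centralizer_singleton_iff.2 ?_
  simp only [Subgroup.coe_mul] at hzs
  rw [← mul_assoc, hzu, mul_assoc, hzs, ← mul_assoc]

theorem local_regular_div {u : G} (hu : u ∈ P) (hu1 : u ≠ 1)
    {ξ : IrrCharacter (Subgroup.centralizer ({u} : Set G))}
    (hξ : ξ ∈ belowBlock (M := M) 2 P e0 u)
    {s : Subgroup.centralizer ({u} : Set G)} (hs : ¬ 2 ∣ orderOf s) :
    MemLocalRing M (4 * (ξ : Subgroup.centralizer ({u} : Set G) → ℂ) s /
      (Nat.card (Subgroup.centralizer ({u * (s : G)} : Set G)) : ℂ)) := by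
  classical
  haveI : Fact (Nat.Prime 2) := ⟨Nat.prime_two⟩
  rw [card_centralizer_mul s (isPElem_of_mem hM hB hmax hu) hs]
  obtain ⟨hbl, -, -⟩ := belowBlock_spec hM hB hmax hu
  set b := belowBlock (M := M) 2 P e0 u
  have hc4 : (blockFinset b).card = 4 := by
    rw [BrauerCharacters.card_blockFinset, (local_card hM hB hmax h4 hab hu hu1).1]
  have hsum : ∀ t : Subgroup.centralizer ({u} : Set G), ¬ 2 ∣ orderOf t →
      ∑ η ∈ blockFinset b, (1 : ℂ) * (η : Subgroup.centralizer ({u} : Set G) → ℂ) t =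
        4 * (ξ : Subgroup.centralizer ({u} : Set G) → ℂ) t := by
    intro t ht
    rw [Finset.sum_congr rfl (g := fun _ => (ξ : Subgroup.centralizer ({u} : Set G) → ℂ) t)
      fun η hη => by rw [one_mul, local_regular_eq hM hB hmax h4 hab hu hu1 hξ (mem_blockFinset.1 hη) ht],
      Finset.sum_const, hc4, nsmul_eq_mul]
    norm_num
  rw [← hsum s hs]
  refine memLocalRing_div_centralizer hM _ _ _
    (fun _ _ => by simpa using memLocalRing_intCast (M := M) 1)
    (fun η _ => CharTheory.IsIrrCharacter.isCharacter η.2) (fun t ht => ?_) hs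
  have h0 := BrauerCharacters.weakOrth hM hbl 1 t (by simp) ht
  rw [BrauerCharacters.finsum_mem_eq_sum_blockFinset,
    Finset.sum_congr rfl (g := fun η : IrrCharacter (Subgroup.centralizer ({u} : Set G)) =>
      (ξ : Subgroup.centralizer ({u} : Set G) → ℂ) 1 *
        conj ((η : Subgroup.centralizer ({u} : Set G) → ℂ) t))
      fun η hη => by
        rw [local_regular_eq hM hB hmax h4 hab hu hu1 hξ (mem_blockFinset.1 hη)
          (s := 1) (by simp)],
    ← Finset.mul_sum] at h0
  have h1 := (mul_eq_zero.1 h0).resolve_left (CharTheory.apply_one_ne_zero_of_isIrr ξ.2)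
  rw [← map_sum, map_eq_zero_iff _ (starRingEnd ℂ).injective] at h1
  simpa using h1

/-- The part on the section is an integral combination of the common regular value. -/
theorem local_val {u : G} (hu : u ∈ P) (hu1 : u ≠ 1)
    {ξ₀ : IrrCharacter (Subgroup.centralizer ({u} : Set G))}
    [Fintype (Subgroup.centralizer ({u} : Set G))]
    (hξ : ξ₀ ∈ belowBlock (M := M) 2 P e0 u) (χ : IrrCharacter G) :
    ∀ s : Subgroup.centralizer ({u} : Set G), ¬ 2 ∣ orderOf s →
      val χ (u * (s : G)) (subIdem M _ (belowBlock (M := M) 2 P e0 u)) =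
        (∑ ξ ∈ blockFinset (belowBlock (M := M) 2 P e0 u),
          (subMult (Subgroup.centralizer ({u} : Set G)) χ ξ : ℂ) *
            centralVal (ξ : Subgroup.centralizer ({u} : Set G) → ℂ) (cenElem u)) *
          (ξ₀ : Subgroup.centralizer ({u} : Set G) → ℂ) s := by
  classical
  haveI : Fact (Nat.Prime 2) := ⟨Nat.prime_two⟩
  intro s hs
  obtain ⟨hbl, -, -⟩ := belowBlock_spec hM hB hmax hu
  rw [show u * (s : G) = ((cenElem u * s : Subgroup.centralizer ({u} : Set G)) : G) from rfl,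
    val_subIdem χ _ hbl, subFun, Finset.sum_mul]
  refine Finset.sum_congr rfl fun ξ hξ' => ?_
  rw [(centralVal_spec ξ (commute_cenElem u)).2 s,
    local_regular_eq hM hB hmax h4 hab hu hu1 hξ (mem_blockFinset.1 hξ') hs, mul_assoc]

omit h4 hab [IsAlgClosed (Res M)] in
theorem memLocalRing_mult_sum {u : G} [Fintype (Subgroup.centralizer ({u} : Set G))]
    (b : Set (IrrCharacter (Subgroup.centralizer ({u} : Set G)))) (χ : IrrCharacter G) :
    MemLocalRing M (∑ ξ ∈ blockFinset b, (subMult (Subgroup.centralizer ({u} : Set G)) χ ξ : ℂ) *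
      centralVal (ξ : Subgroup.centralizer ({u} : Set G) → ℂ) (cenElem u)) := by
  refine memLocalRing_sum fun ξ _ => memLocalRing_mul (memLocalRing_intCast _) ?_
  refine memLocalRing_of_isIntegral (IsIntegral.of_pow (orderOf_pos (cenElem u)) ?_)
  rw [(centralVal_spec ξ (commute_cenElem u)).1]
  exact isIntegral_one

omit h4 hab in
/-- A pair of the block at a singular element is conjugate into the maximal pair. -/
theorem exists_section {g : G} (hg : 2 ∣ orderOf g) {c : MonoidAlgebra (Res M) G}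
    (hc : c ∈ (haveI : Fact (Nat.Prime 2) := ⟨Nat.prime_two⟩; blocksAt M (ppart 2 g)))
    (hp : haveI : Fact (Nat.Prime 2) := ⟨Nat.prime_two⟩;
      PairOf 2 (⊤ : Subgroup G) (redElem M (blockCoeff B)) (Subgroup.zpowers (ppart 2 g)) c) :
    haveI : Fact (Nat.Prime 2) := ⟨Nat.prime_two⟩
    ∃ (x v : G) (s : Subgroup.centralizer ({v} : Set G)), v ∈ P ∧ v ≠ 1 ∧ ¬ 2 ∣ orderOf s ∧
      x * g * x⁻¹ = v * (s : G) ∧
      conjA x c = subIdem M _ (belowBlock (M := M) 2 P e0 v) ∧
      ∀ χ : IrrCharacter G, val χ g c =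
        val χ (v * (s : G)) (subIdem M _ (belowBlock (M := M) 2 P e0 v)) := by
  haveI : Fact (Nat.Prime 2) := ⟨Nat.prime_two⟩
  have hb := isBlockIdem_redElem_blockCoeff (M := M) hB
  obtain ⟨x, hx⟩ := (exists_conj_iff hb hmax).2 hp
  obtain ⟨s, hs, hcs, hord, hreg⟩ := ppart_spec (p := 2) g
  set u := ppart 2 g
  set v := x * u * x⁻¹ with hv
  have hvP : v ∈ P := hx.le (Subgroup.mem_zpowers _)
  have hv1 : v ≠ 1 := by
    intro h
    have hu1 : u = 1 := by
      have h' : x⁻¹ * v * x = 1 := by rw [h]; group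
      rw [← h', hv]; group
    rw [hu1, one_mul] at hs
    exact hreg (hs ▸ hg)
  have hsC : x * s * x⁻¹ ∈ Subgroup.centralizer ({v} : Set G) := by
    refine Subgroup.mem_centralizer_singleton_iff.2 ?_
    rw [hv, show x * s * x⁻¹ * (x * u * x⁻¹) = x * (s * u) * x⁻¹ by group, ← hcs.eq]
    group
  have hsord : ¬ 2 ∣ orderOf (⟨_, hsC⟩ : Subgroup.centralizer ({v} : Set G)) := by
    rw [← Subgroup.orderOf_coe]
    show ¬ 2 ∣ orderOf (x * s * x⁻¹)
    rwa [← MulAut.conj_apply, MulEquiv.orderOf_eq]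
  have heq : x * g * x⁻¹ = v * (x * s * x⁻¹) := by rw [hv, ← hs]; group
  obtain ⟨-, hlev, -⟩ := belowBlock_spec hM hB hmax hvP
  have hce : conjA x c = subIdem M _ (belowBlock (M := M) 2 P e0 v) :=
    (existsUnique_pairLE hmax.1.1 hlev.le).unique hx hlev
  refine ⟨x, v, ⟨_, hsC⟩, hvP, hv1, hsord, heq, hce, fun χ => ?_⟩
  have hcb := mem_blockIdems.1 hc
  rw [← hce, ← heq, val_conj χ x hcb.mul_self (commute_block hcb 0).1]

omit hM hB hmax h4 hab [CharP (Res M) 2] [IsAlgClosed (Res M)] [M.IsPrime] in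
theorem card_centralizer_of_conj {x g h : G} (hxg : x * g * x⁻¹ = h) :
    Nat.card (Subgroup.centralizer ({g} : Set G)) =
      Nat.card (Subgroup.centralizer ({h} : Set G)) := by
  subst hxg
  have key : ∀ a z : G, z * a = a * z → (x * z * x⁻¹) * (x * a * x⁻¹) = (x * a * x⁻¹) * (x * z * x⁻¹) :=
    fun a z e => by rw [show x * z * x⁻¹ * (x * a * x⁻¹) = x * (z * a) * x⁻¹ by group, e]; group
  refine Nat.card_congr
    { toFun := fun z => ⟨x * (z : G) * x⁻¹, Subgroup.mem_centralizer_singleton_iff.2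
        (key g z (Subgroup.mem_centralizer_singleton_iff.1 z.2))⟩
      invFun := fun z => ⟨x⁻¹ * (z : G) * x, Subgroup.mem_centralizer_singleton_iff.2 ?_⟩
      left_inv := fun z => Subtype.ext (by simp [mul_assoc])
      right_inv := fun z => Subtype.ext (by simp [mul_assoc]) }
  have hz := Subgroup.mem_centralizer_singleton_iff.1 z.2
  calc x⁻¹ * (z : G) * x * g = x⁻¹ * ((z : G) * (x * g * x⁻¹)) * x := by group
    _ = x⁻¹ * (x * g * x⁻¹ * (z : G)) * x := by rw [hz]
    _ = g * (x⁻¹ * (z : G) * x) := by group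

/-- Every part of a character on a pair of the block is divisible. -/
theorem val_div {g : G} (hg : 2 ∣ orderOf g) {c : MonoidAlgebra (Res M) G}
    (hc : c ∈ (haveI : Fact (Nat.Prime 2) := ⟨Nat.prime_two⟩; blocksAt M (ppart 2 g)))
    (hp : haveI : Fact (Nat.Prime 2) := ⟨Nat.prime_two⟩;
      PairOf 2 (⊤ : Subgroup G) (redElem M (blockCoeff B)) (Subgroup.zpowers (ppart 2 g)) c)
    (χ : IrrCharacter G) :
    MemLocalRing M (4 * val χ g c / (Nat.card (Subgroup.centralizer ({g} : Set G)) : ℂ)) := by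
  classical
  haveI : Fact (Nat.Prime 2) := ⟨Nat.prime_two⟩
  obtain ⟨x, v, s, hv, hv1, hs, hxg, -, hval⟩ := exists_section hM hB hmax hg hc hp
  haveI : Fintype (Subgroup.centralizer ({v} : Set G)) := Fintype.ofFinite _
  obtain ⟨ξ₀, hξ₀⟩ := Blocks.isPBlock_nonempty (belowBlock_spec hM hB hmax hv).1
  rw [hval, local_val hM hB hmax h4 hab hv hv1 hξ₀ χ s hs, card_centralizer_of_conj hxg,
    ← mul_assoc (4 : ℂ), mul_comm (4 : ℂ), mul_assoc, mul_div_assoc]
  exact memLocalRing_mul (memLocalRing_mult_sum hM hB hmax _ χ)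
    (local_regular_div hM hB hmax h4 hab hv hv1 hξ₀ hs)

end CfsgLib.Frobenius.CycShape
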