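import Cfsg.Prelude.Def_BlockLocal
import Cfsg.Agent.Lib.Frobenius.CycShape.RegularDvd

/-!
# Perfect isometries between blocks with four characters and sign columns

`SignShape p M B m` records a block with four characters whose values on the singular elements
are combinations of `m` orthogonal sign columns, orthogonal to the values on the regular elements.
For `m = 1` and `m = 3` any two such blocks are perfectly isometric.
-/

set_option autoImplicit false
set_option linter.unusedSectionVars false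

noncomputable section

namespace CfsgLib.Frobenius.CycShape

open Cfsg Finset CfsgLib.Blocks

/-- Four characters with `m` orthogonal columns of signs. -/
structure SignShape {G : Type*} [Group G] (p : ℕ) (M : Ideal AlgInt) (B : Set (IrrCharacter G))
    (m : ℕ) where
  /-- the characters -/
  S : Finset (IrrCharacter G)
  eq_set : B = ↑S
  card_eq : S.card = 4
  /-- the signs -/
  d : IrrCharacter G → Fin m → ℤ
  sign : ∀ χ ∈ S, ∀ i, d χ i = 1 ∨ d χ i = -1
  orth : ∀ i j, i ≠ j → ∑ χ ∈ S, d χ i * d χ j = 0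
  rel : ∀ g : G, ¬ p ∣ orderOf g → ∀ i, ∑ χ ∈ S, (d χ i : ℂ) * (χ : G → ℂ) g = 0
  value : ∀ g : G, p ∣ orderOf g → ∃ w : Fin m → ℂ, (∀ i, MemLocalRing M (w i)) ∧
    (∀ i, MemLocalRing M (4 * w i / (Nat.card (Subgroup.centralizer ({g} : Set G)) : ℂ))) ∧
    ∀ χ ∈ S, (χ : G → ℂ) g = ∑ i, w i * (d χ i : ℂ)

variable {G : Type*} [Group G] {H : Type*} [Group H] {p : ℕ} {M : Ideal AlgInt}
  {B : Set (IrrCharacter G)} {C : Set (IrrCharacter H)} {m : ℕ}

/-- A matching of the rows up to sign. -/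
structure SignMatch (S : SignShape p M B m) (S' : SignShape p M C m) where
  /-- the map -/
  f : IrrCharacter H → IrrCharacter G
  /-- the signs -/
  ε : IrrCharacter H → ℤ
  bij : Set.BijOn f ↑S'.S ↑S.S
  sign : ∀ η ∈ S'.S, ε η = 1 ∨ ε η = -1
  d_eq : ∀ η ∈ S'.S, ∀ i, S.d (f η) i = ε η * S'.d η i

theorem int_sign_mul {a b : ℤ} (ha : a = 1 ∨ a = -1) (hb : b = 1 ∨ b = -1) :
    a * b = 1 ∨ a * b = -1 := by
  rcases ha with rfl | rfl <;> rcases hb with rfl | rfl <;> simp

/-- The class of a row up to sign. -/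
def SignShape.pattern {m : ℕ} (S : SignShape p M B (m + 1)) (χ : IrrCharacter G) : Fin (m + 1) → ℤ :=
  fun i => S.d χ i * S.d χ 0

theorem SignShape.card_pattern (S : SignShape p M B 3) {a b : ℤ} (ha : a = 1 ∨ a = -1)
    (hb : b = 1 ∨ b = -1) :
    (S.S.filter fun χ => S.d χ 1 * S.d χ 0 = a ∧ S.d χ 2 * S.d χ 0 = b).card = 1 := by
  classical
  have h1 : ∀ χ ∈ S.S, (1 + a * (S.d χ 1 * S.d χ 0)) * (1 + b * (S.d χ 2 * S.d χ 0)) =
      if S.d χ 1 * S.d χ 0 = a ∧ S.d χ 2 * S.d χ 0 = b then (4 : ℤ) else 0 := by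
    intro χ hχ
    rcases ha with rfl | rfl <;> rcases hb with rfl | rfl <;>
      rcases S.sign χ hχ 0 with h0 | h0 <;> rcases S.sign χ hχ 1 with h | h <;>
      rcases S.sign χ hχ 2 with h2 | h2 <;> simp [h0, h, h2]
  have h2 := Finset.sum_congr rfl h1 (s₂ := S.S)
  rw [← Finset.sum_filter, Finset.sum_const, nsmul_eq_mul] at h2
  have h01 := S.orth 1 0 (by decide)
  have h02 := S.orth 2 0 (by decide)
  have h12 := S.orth 1 2 (by decide)
  have h3 : ∀ χ ∈ S.S, (1 + a * (S.d χ 1 * S.d χ 0)) * (1 + b * (S.d χ 2 * S.d χ 0)) =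
      1 + a * (S.d χ 1 * S.d χ 0) + b * (S.d χ 2 * S.d χ 0) + a * b * (S.d χ 1 * S.d χ 2) := by
    intro χ hχ
    rcases S.sign χ hχ 0 with h0 | h0 <;> rw [h0] <;> ring
  rw [Finset.sum_congr rfl h3] at h2
  simp only [Finset.sum_add_distrib, ← Finset.mul_sum, h01, h02, h12, Finset.sum_const,
    S.card_eq, nsmul_eq_mul, mul_zero, add_zero, mul_one] at h2
  norm_num at h2
  omega

theorem exists_signMatch_one (S : SignShape p M B 1) (S' : SignShape p M C 1) :
    Nonempty (SignMatch S S') := by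
  classical
  obtain ⟨χ₀, -⟩ : S.S.Nonempty := Finset.card_pos.1 (by rw [S.card_eq]; norm_num)
  set φ : S'.S ≃ S.S := Finset.equivOfCardEq (by rw [S.card_eq, S'.card_eq])
  let f : IrrCharacter H → IrrCharacter G := fun η =>
    if h : η ∈ S'.S then (φ ⟨η, h⟩ : IrrCharacter G) else χ₀
  have hf : ∀ η (h : η ∈ S'.S), f η = (φ ⟨η, h⟩ : IrrCharacter G) := fun η h => dif_pos h
  have hmem : ∀ η ∈ S'.S, f η ∈ S.S := fun η h => hf η h ▸ (φ ⟨η, h⟩).2
  refine ⟨⟨f, fun η => S.d (f η) 0 * S'.d η 0, Set.BijOn.mk hmem ?_ ?_,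
    fun η hη => int_sign_mul (S.sign _ (hmem η hη) 0) (S'.sign η hη 0), fun η hη i => ?_⟩⟩
  · intro η hη η' hη' h
    rw [hf η hη, hf η' hη'] at h
    exact congrArg Subtype.val (φ.injective (Subtype.ext h))
  · intro χ hχ
    refine ⟨(φ.symm ⟨χ, hχ⟩ : IrrCharacter H), (φ.symm ⟨χ, hχ⟩).2, ?_⟩
    rw [hf _ (φ.symm ⟨χ, hχ⟩).2]
    simp
  · obtain rfl : i = 0 := Fin.eq_zero i
    rcases S'.sign η hη 0 with h | h <;> simp [h]

theorem exists_signMatch_three (S : SignShape p M B 3) (S' : SignShape p M C 3) :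
    Nonempty (SignMatch S S') := by
  classical
  obtain ⟨χ₀, -⟩ : S.S.Nonempty := Finset.card_pos.1 (by rw [S.card_eq]; norm_num)
  have hex : ∀ η ∈ S'.S, ∃ χ, χ ∈ S.S ∧ S.d χ 1 * S.d χ 0 = S'.d η 1 * S'.d η 0 ∧
      S.d χ 2 * S.d χ 0 = S'.d η 2 * S'.d η 0 := fun η hη => by
    obtain ⟨χ, hχ⟩ := Finset.card_eq_one.1 (S.card_pattern
      (int_sign_mul (S'.sign η hη 1) (S'.sign η hη 0))
      (int_sign_mul (S'.sign η hη 2) (S'.sign η hη 0)))
    exact ⟨χ, Finset.mem_filter.1 (hχ.symm ▸ Finset.mem_singleton_self χ)⟩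
  let f : IrrCharacter H → IrrCharacter G := fun η =>
    if h : η ∈ S'.S then (hex η h).choose else χ₀
  have hf : ∀ η (h : η ∈ S'.S), f η ∈ S.S ∧
      S.d (f η) 1 * S.d (f η) 0 = S'.d η 1 * S'.d η 0 ∧
      S.d (f η) 2 * S.d (f η) 0 = S'.d η 2 * S'.d η 0 := fun η h => by
    simp only [f, dif_pos h]
    exact (hex η h).choose_spec
  have hinj : Set.InjOn f ↑S'.S := by
    intro η hη η' hη' h
    obtain ⟨-, h1, h2⟩ := hf η hη
    obtain ⟨-, h1', h2'⟩ := hf η' hη'
    rw [h] at h1 h2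
    obtain ⟨x, hx⟩ := Finset.card_eq_one.1 (S'.card_pattern
      (int_sign_mul (S'.sign η hη 1) (S'.sign η hη 0))
      (int_sign_mul (S'.sign η hη 2) (S'.sign η hη 0)))
    have ha := Finset.ext_iff.1 hx η
    have hb := Finset.ext_iff.1 hx η'
    simp only [Finset.mem_filter, Finset.mem_singleton] at ha hb
    rw [ha.1 ⟨hη, trivial, trivial⟩, hb.1 ⟨hη', h1'.symm.trans h1, h2'.symm.trans h2⟩]
  refine ⟨⟨f, fun η => S.d (f η) 0 * S'.d η 0,
    Set.BijOn.mk (fun η hη => (hf η hη).1) hinj ?_,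
    fun η hη => int_sign_mul (S.sign _ (hf η hη).1 0) (S'.sign η hη 0), fun η hη i => ?_⟩⟩
  · intro χ hχ
    obtain ⟨η, hη, h⟩ := Finset.surj_on_of_inj_on_of_card_le (fun η _ => f η)
      (fun η hη => (hf η hη).1) (fun η η' hη hη' h => hinj hη hη' h)
      (by rw [S.card_eq, S'.card_eq]) χ hχ
    exact ⟨η, hη, h.symm⟩
  · obtain ⟨hm, h1, h2⟩ := hf η hη
    have key : S.d (f η) i * S.d (f η) 0 = S'.d η i * S'.d η 0 := by
      fin_cases i
      · rcases S.sign _ hm 0 with h | h <;> rcases S'.sign η hη 0 with h' | h' <;> simp [h, h']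
      · exact h1
      · exact h2
    rcases S.sign _ hm 0 with h | h <;> rcases S'.sign η hη 0 with h' | h' <;>
      simp [h, h'] at key ⊢ <;> omega

variable {S : SignShape p M B m} {S' : SignShape p M C m}

/-- The kernel of the isometry. -/
def SignMatch.ker (T : SignMatch S S') (x : G) (y : H) : ℂ :=
  ∑ η ∈ S'.S, (T.ε η : ℂ) * (T.f η : G → ℂ) x * (η : H → ℂ) y

theorem SignMatch.kernel_eq (T : SignMatch S S') (x : G) (y : H) :
    signedBijectionKernel C T.f T.ε x y = T.ker x y := by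
  rw [signedBijectionKernel, finsum_mem_congr (t := ↑S'.S) S'.eq_set (fun _ _ => rfl),
    finsum_mem_coe_finset, SignMatch.ker]

theorem SignMatch.sum_comp (T : SignMatch S S') (F : IrrCharacter G → ℂ) :
    ∑ η ∈ S'.S, F (T.f η) = ∑ χ ∈ S.S, F χ :=
  Finset.sum_nbij T.f (fun _ h => T.bij.mapsTo h) T.bij.injOn T.bij.surjOn fun _ _ => rfl

theorem SignMatch.sq (T : SignMatch S S') {η : IrrCharacter H} (hη : η ∈ S'.S) :
    (T.ε η : ℂ) * (T.ε η : ℂ) = 1 := by
  rcases T.sign η hη with h | h <;> simp [h]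

theorem SignMatch.ker_left (T : SignMatch S S') {x : G} {y : H} (hx : ¬ p ∣ orderOf x)
    (hy : p ∣ orderOf y) : T.ker x y = 0 := by
  obtain ⟨w, -, -, hw⟩ := S'.value y hy
  have h : ∀ η ∈ S'.S, (T.ε η : ℂ) * (T.f η : G → ℂ) x * (η : H → ℂ) y =
      ∑ i, w i * ((S.d (T.f η) i : ℂ) * (T.f η : G → ℂ) x) := by
    intro η hη
    rw [hw η hη, Finset.mul_sum]
    refine Finset.sum_congr rfl fun i _ => ?_
    rw [T.d_eq η hη i]
    push_cast
    ring
  rw [SignMatch.ker, Finset.sum_congr rfl h, Finset.sum_comm]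
  refine Finset.sum_eq_zero fun i _ => ?_
  rw [← Finset.mul_sum, T.sum_comp (fun χ => (S.d χ i : ℂ) * (χ : G → ℂ) x), S.rel x hx i,
    mul_zero]

theorem SignMatch.ker_right (T : SignMatch S S') {x : G} {y : H} (hx : p ∣ orderOf x)
    (hy : ¬ p ∣ orderOf y) : T.ker x y = 0 := by
  obtain ⟨w, -, -, hw⟩ := S.value x hx
  have h : ∀ η ∈ S'.S, (T.ε η : ℂ) * (T.f η : G → ℂ) x * (η : H → ℂ) y =
      ∑ i, w i * ((S'.d η i : ℂ) * (η : H → ℂ) y) := by
    intro η hη
    rw [hw _ (T.bij.mapsTo hη), Finset.mul_sum, Finset.sum_mul]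
    refine Finset.sum_congr rfl fun i _ => ?_
    rw [T.d_eq η hη i]
    push_cast
    linear_combination (w i * (S'.d η i : ℂ) * (η : H → ℂ) y) * T.sq hη
  rw [SignMatch.ker, Finset.sum_congr rfl h, Finset.sum_comm]
  exact Finset.sum_eq_zero fun i _ => by rw [← Finset.mul_sum, S'.rel y hy i, mul_zero]

variable [M.IsPrime]

theorem SignMatch.memLocalRing_singular (T : SignMatch S S') {x : G} {y : H} (hx : p ∣ orderOf x)
    (hy : p ∣ orderOf y) :
    MemLocalRing M (T.ker x y / (Nat.card (Subgroup.centralizer ({x} : Set G)) : ℂ)) ∧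
      MemLocalRing M (T.ker x y / (Nat.card (Subgroup.centralizer ({y} : Set H)) : ℂ)) := by
  classical
  obtain ⟨w, hw1, hw2, hw⟩ := S.value x hx
  obtain ⟨w', hw1', hw2', hw'⟩ := S'.value y hy
  have hsq : ∀ i, ∑ η ∈ S'.S, S'.d η i * S'.d η i = 4 := fun i => by
    rw [Finset.sum_congr rfl (g := fun _ => (1 : ℤ)) fun η hη => by
      rcases S'.sign η hη i with h | h <;> simp [h], Finset.sum_const, S'.card_eq]
    norm_num
  have hK : T.ker x y = ∑ i, 4 * w i * w' i := by
    have h : ∀ η ∈ S'.S, (T.ε η : ℂ) * (T.f η : G → ℂ) x * (η : H → ℂ) y =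
        ∑ i, ∑ j, w i * w' j * ((S'.d η i * S'.d η j : ℤ) : ℂ) := by
      intro η hη
      rw [hw _ (T.bij.mapsTo hη), hw' η hη, mul_assoc, Finset.sum_mul_sum, Finset.mul_sum]
      refine Finset.sum_congr rfl fun i _ => ?_
      rw [Finset.mul_sum]
      refine Finset.sum_congr rfl fun j _ => ?_
      rw [T.d_eq η hη i]
      push_cast
      linear_combination (w i * (S'.d η i : ℂ) * w' j * (S'.d η j : ℂ)) * T.sq hη
    rw [SignMatch.ker, Finset.sum_congr rfl h, Finset.sum_comm]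
    refine Finset.sum_congr rfl fun i _ => ?_
    rw [Finset.sum_comm, Finset.sum_eq_single i]
    · rw [← Finset.mul_sum, ← Int.cast_sum, hsq i]
      push_cast
      ring
    · intro j _ hj
      rw [← Finset.mul_sum, ← Int.cast_sum, S'.orth i j hj.symm, Int.cast_zero, mul_zero]
    · exact fun h => absurd (Finset.mem_univ i) h
  rw [hK, Finset.sum_div, Finset.sum_div]
  refine ⟨memLocalRing_sum fun i _ => ?_, memLocalRing_sum fun i _ => ?_⟩
  · rw [show 4 * w i * w' i / (Nat.card (Subgroup.centralizer ({x} : Set G)) : ℂ) =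
      4 * w i / (Nat.card (Subgroup.centralizer ({x} : Set G)) : ℂ) * w' i by ring]
    exact memLocalRing_mul (hw2 i) (hw1' i)
  · rw [show 4 * w i * w' i / (Nat.card (Subgroup.centralizer ({y} : Set H)) : ℂ) =
      w i * (4 * w' i / (Nat.card (Subgroup.centralizer ({y} : Set H)) : ℂ)) by ring]
    exact memLocalRing_mul (hw1 i) (hw2' i)

variable [Finite G] [Finite H] [Fact p.Prime]

theorem SignMatch.memLocalRing_regular (T : SignMatch S S') (hM : IsPModular p M) {x : G} {y : H}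
    (hx : ¬ p ∣ orderOf x) (hy : ¬ p ∣ orderOf y) :
    MemLocalRing M (T.ker x y / (Nat.card (Subgroup.centralizer ({x} : Set G)) : ℂ)) ∧
      MemLocalRing M (T.ker x y / (Nat.card (Subgroup.centralizer ({y} : Set H)) : ℂ)) := by
  constructor
  · have hk : ∀ g : G, T.ker g y =
        ∑ η ∈ S'.S, ((T.ε η : ℂ) * (η : H → ℂ) y) * (T.f η : G → ℂ) g :=
      fun g => Finset.sum_congr rfl fun η _ => by ring
    rw [hk]
    refine memLocalRing_div_centralizer hM _ _ (fun η => (T.f η : G → ℂ)) (fun η _ => ?_)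
      (fun η _ => CharTheory.IsIrrCharacter.isCharacter (T.f η).2) (fun g hg => ?_) hx
    · exact memLocalRing_mul (memLocalRing_intCast _) (memLocalRing_of_isIntegral
        (CharTheory.IsCharacter.isIntegral (CharTheory.IsIrrCharacter.isCharacter η.2) y))
    · rw [← hk]; exact T.ker_right hg hy
  · have hk : ∀ h : H, T.ker x h =
        ∑ η ∈ S'.S, ((T.ε η : ℂ) * (T.f η : G → ℂ) x) * (η : H → ℂ) h :=
      fun h => Finset.sum_congr rfl fun η _ => by ring
    rw [hk]
    refine memLocalRing_div_centralizer hM _ _ (fun η : IrrCharacter H => (η : H → ℂ))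
      (fun η _ => ?_)
      (fun η _ => CharTheory.IsIrrCharacter.isCharacter η.2) (fun h hh => ?_) hy
    · exact memLocalRing_mul (memLocalRing_intCast _) (memLocalRing_of_isIntegral
        (CharTheory.IsCharacter.isIntegral (CharTheory.IsIrrCharacter.isCharacter (T.f η).2) x))
    · rw [← hk]; exact T.ker_left hx hh

/-- Matched blocks are perfectly isometric. -/
theorem SignMatch.isPerfectIsometry (T : SignMatch S S') (hM : IsPModular p M) :
    IsPerfectIsometry p M C B T.f T.ε := by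
  have hC : ∀ η, η ∈ C ↔ η ∈ S'.S := fun η => (Set.ext_iff.1 S'.eq_set η).trans Finset.mem_coe
  refine ⟨?_, fun η hη => T.sign η ((hC η).1 hη), ?_⟩
  · refine Set.BijOn.mk (fun η hη => ?_) (fun η hη η' hη' h => ?_) fun χ hχ => ?_
    · exact (Set.ext_iff.1 S.eq_set _).2 (T.bij.mapsTo ((hC η).1 hη))
    · exact T.bij.injOn ((hC η).1 hη) ((hC η').1 hη') h
    · obtain ⟨η, hη, rfl⟩ := T.bij.surjOn ((Set.ext_iff.1 S.eq_set χ).1 hχ)
      exact ⟨η, (hC η).2 hη, rfl⟩
  · intro x y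
    simp only [T.kernel_eq, IsPRegular]
    have hz : MemLocalRing M (0 : ℂ) := by simpa using memLocalRing_intCast (M := M) 0
    by_cases hx : p ∣ orderOf x <;> by_cases hy : p ∣ orderOf y
    · exact ⟨(T.memLocalRing_singular hx hy).1, (T.memLocalRing_singular hx hy).2,
        Or.inl (by simp [hx, hy])⟩
    · have h0 := T.ker_right hx hy
      exact ⟨by rwa [h0, zero_div], by rwa [h0, zero_div], Or.inr h0⟩
    · have h0 := T.ker_left hx hy
      exact ⟨by rwa [h0, zero_div], by rwa [h0, zero_div], Or.inr h0⟩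
    · exact ⟨(T.memLocalRing_regular hM hx hy).1, (T.memLocalRing_regular hM hx hy).2,
        Or.inl (by simp [hx, hy])⟩

end CfsgLib.Frobenius.CycShape
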