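import Cfsg.Agent.Lib.Frobenius.CycShape.OrderFourSections
import Cfsg.Agent.Lib.Frobenius.CycShape.SignShape
import Cfsg.Agent.Lib.Blocks.Knorr

/-!
# The shape of a block with a defect group of order four and exponent two
-/

set_option autoImplicit false
set_option linter.style.haveILetI false
set_option linter.unusedSectionVars false

noncomputable section

namespace CfsgLib.Frobenius.CycShape

open Cfsg CfsgLib.Blocks MonoidAlgebra CfsgLib.BrauerPairs CfsgLib.BlockStar CfsgLib.BlockSections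
open CfsgLib.Jordan.CyclicDefect
open CfsgLib.BrauerCharacters (cenElem commute_cenElem centralVal_spec centralVal blockFinset
  mem_blockFinset)
open scoped ComplexConjugate

theorem sum_int_eq_one {ι : Type*} {S : Finset ι} {f : ι → ℤ} (hcard : S.card = 4)
    (hne : ∀ i ∈ S, f i ≠ 0) (hsum : ∑ i ∈ S, f i * f i = 4) : ∀ i ∈ S, f i = 1 ∨ f i = -1 := by
  intro i hi
  have h1 : ∀ j ∈ S, 1 ≤ f j * f j := fun j hj => by
    have := hne j hj
    rcases lt_or_gt_of_ne this with h | h <;> nlinarith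
  have h2 : f i * f i = 1 := by
    by_contra h
    have h3 : 1 < f i * f i := lt_of_le_of_ne (h1 i hi) (Ne.symm h)
    have := Finset.sum_lt_sum (f := fun _ => (1 : ℤ)) h1 ⟨i, hi, h3⟩
    rw [Finset.sum_const, hcard, hsum] at this
    norm_num at this
  exact mul_self_eq_one_iff.1 h2

variable {G : Type*} [Group G] [Fintype G] {M : Ideal AlgInt} [M.IsPrime]
  [CharP (Res M) 2] [IsAlgClosed (Res M)] {B : Set (IrrCharacter G)}
  {P : Subgroup G} {e0 : MonoidAlgebra (Res M) G}
  (hM : IsPModular 2 M) (hB : IsPBlock M B)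
  (hmax : IsMaxPair 2 (⊤ : Subgroup G) (redElem M (blockCoeff B)) P e0)
  (h4 : Nat.card P = 4) (hab : ∀ x ∈ P, ∀ y ∈ P, x * y = y * x)
  (hexp : ∀ v ∈ P, v * v = 1)

include hM hB hmax h4 hab hexp

/-- The inertial quotient is trivial: three columns. -/
theorem exists_signShape_three
    (htriv : ∀ t ∈ pairStab (⊤ : Subgroup G) P e0, t ∈ Subgroup.centralizer (P : Set G)) :
    Nonempty (SignShape 2 M B 3) := by
  classical
  haveI : Fact (Nat.Prime 2) := ⟨Nat.prime_two⟩
  have hb := isBlockIdem_redElem_blockCoeff (M := M) hB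
  have H : AbNilp 2 M B P e0 := ⟨hM, hB, hmax, (hmax.isNilp_iff_of_abelian hb hab).2 htriv, hab⟩
  obtain ⟨θ, hθ⟩ := Blocks.isPBlock_nonempty hB
  haveI := Fintype.ofFinite (P →* ℂˣ)
  haveI := Fintype.ofFinite P
  have hcard : Fintype.card {v : P // v ≠ 1} = 3 := by
    rw [Fintype.card_subtype_compl, Fintype.card_subtype_eq, ← Nat.card_eq_fintype_card, h4]
  set ι : Fin 3 ≃ {v : P // v ≠ 1} := (Fintype.equivFinOfCardEq hcard).symm
  have hsq : ∀ (l : P →* ℂˣ) (v : P), (l v : ℂ) * (l v : ℂ) = 1 := fun l v => by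
    rw [← Units.val_mul, ← map_mul, show v * v = 1 from Subtype.ext (hexp v v.2), map_one,
      Units.val_one]
  let pick : IrrCharacter G → (P →* ℂˣ) := fun χ =>
    if h : ∃ l, H.th hθ l = χ then h.choose else 1
  have hpick : ∀ l, pick (H.th hθ l) = l := fun l => by
    have h : ∃ k, H.th hθ k = H.th hθ l := ⟨l, rfl⟩
    simp only [pick, dif_pos h]
    exact H.th_injective hθ h.choose_spec
  let d : IrrCharacter G → Fin 3 → ℤ := fun χ i =>
    if ((pick χ (ι i).1 : ℂˣ) : ℂ) = 1 then 1 else -1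
  have hd : ∀ l i, (d (H.th hθ l) i : ℂ) = (l (ι i).1 : ℂ) := by
    intro l i
    simp only [d, hpick]
    split_ifs with h
    · simp [h]
    · rcases mul_self_eq_one_iff.1 (hsq l (ι i).1) with h' | h'
      · exact absurd h' h
      · simp [h']
  have hsum : ∀ F : IrrCharacter G → ℂ,
      ∑ χ ∈ Finset.univ.image (H.th hθ), F χ = ∑ l, F (H.th hθ l) := fun F =>
    Finset.sum_image fun l _ m _ h => H.th_injective hθ h
  have hz : ∀ v : P, v ≠ 1 → ∑ l : P →* ℂˣ, (l v : ℂ) = 0 := fun v hv => by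
    have h := H.sum_homs v
    rw [if_neg hv] at h
    convert h
  refine ⟨{
    S := Finset.univ.image (H.th hθ)
    eq_set := by rw [Finset.coe_image, Finset.coe_univ, Set.image_univ, H.image_th hθ]
    card_eq := by
      rw [Finset.card_image_of_injective _ (H.th_injective hθ), Finset.card_univ,
        ← Nat.card_eq_fintype_card, H.card_homs, h4]
    d := d
    sign := fun χ _ i => by simp only [d]; split_ifs <;> simp
    orth := fun i j hij => ?_
    rel := fun g hg i => ?_
    value := fun g hg => ?_ }⟩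
  · have hv : ((ι i).1 : P) * (ι j).1 ≠ 1 := by
      intro h
      refine hij (ι.injective (Subtype.ext ?_))
      have h2 : ((ι j).1 : P) * (ι j).1 = 1 := Subtype.ext (hexp _ (ι j).1.2)
      exact mul_right_cancel (h.trans h2.symm)
    apply Int.cast_injective (α := ℂ)
    push_cast
    rw [hsum (fun χ => (d χ i : ℂ) * (d χ j : ℂ))]
    simp only [hd, ← Units.val_mul, ← map_mul]
    exact hz _ hv
  · rw [hsum (fun χ => (d χ i : ℂ) * (χ : G → ℂ) g)]
    simp only [hd, H.th_regular hθ _ hg, ← Finset.sum_mul]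
    rw [hz _ (ι i).2, zero_mul]
  · set u := ppart 2 g with hu
    have hu1 : u ≠ 1 := by
      intro h
      obtain ⟨s, hs, -, -, hreg⟩ := ppart_spec (p := 2) g
      rw [← hu, h, one_mul] at hs
      exact hreg (hs ▸ hg)
    let Q : MonoidAlgebra (Res M) G → Fin 3 → Prop := fun c i => ∃ x : G,
      PairLE 2 (⊤ : Subgroup G) (Subgroup.zpowers (x * u * x⁻¹)) (conjA x c) P e0 ∧
        ((ι i).1 : G) = x * u * x⁻¹
    let idx : MonoidAlgebra (Res M) G → Fin 3 := fun c => if h : ∃ i, Q c i then h.choose else 0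
    have hval : ∀ l : P →* ℂˣ, ∀ c ∈ blocksAt M u,
        val (H.th hθ l) g c = (l (ι (idx c)).1 : ℂ) * val θ g c := by
      intro l c hc
      by_cases h : ∃ i, Q c i
      · obtain ⟨x, hx, hxi⟩ : Q c (idx c) := by simp only [idx, dif_pos h]; exact h.choose_spec
        rw [H.th_val hθ l g c hc, Lam_eq (H.fusInv l) hx]
        have hmem : x * u * x⁻¹ ∈ P := hx.le (Subgroup.mem_zpowers _)
        rw [lamAt_of_mem l hmem, show (⟨_, hmem⟩ : P) = (ι (idx c)).1 from Subtype.ext hxi.symm]
      · have hp : ¬ PairOf 2 (⊤ : Subgroup G) (redElem M (blockCoeff B)) (Subgroup.zpowers u) c := by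
          intro hp
          obtain ⟨x, hx⟩ := (exists_conj_iff hb hmax).2 hp
          have hmem : x * u * x⁻¹ ∈ P := hx.le (Subgroup.mem_zpowers _)
          have hne : (⟨_, hmem⟩ : P) ≠ 1 := fun e => hu1 (by
            have h' : x * u * x⁻¹ = 1 := congrArg Subtype.val e
            calc u = x⁻¹ * (x * u * x⁻¹) * x := by group
              _ = 1 := by rw [h']; group)
          exact h ⟨ι.symm ⟨⟨_, hmem⟩, hne⟩, x, hx, by rw [Equiv.apply_symm_apply]⟩
        rw [val_eq_zero_of_not_pairOf hM hB (H.th_mem hθ l) (mem_blockIdems.1 hc) hp,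
          val_eq_zero_of_not_pairOf hM hB hθ (mem_blockIdems.1 hc) hp, mul_zero]
    refine ⟨fun i => ∑ c ∈ (blocksAt M u).filter (fun c => idx c = i), val θ g c,
      fun i => memLocalRing_sum fun c _ => memLocalRing_val θ g c, fun i => ?_, fun χ hχ => ?_⟩
    · rw [Finset.mul_sum, Finset.sum_div]
      refine memLocalRing_sum fun c hc => ?_
      have hc' := (Finset.mem_filter.1 hc).1
      by_cases hp : PairOf 2 (⊤ : Subgroup G) (redElem M (blockCoeff B)) (Subgroup.zpowers u) c
      · exact val_div hM hB hmax h4 hab hg hc' hp θ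
      · rw [val_eq_zero_of_not_pairOf hM hB hθ (mem_blockIdems.1 hc') hp, mul_zero, zero_div]
        exact zero_mem (locRing M)
    · obtain ⟨l, -, rfl⟩ := Finset.mem_image.1 hχ
      rw [apply_eq_sum_val (M := M) (p := 2), ← hu,
        ← Finset.sum_fiberwise_of_maps_to (g := idx) (t := Finset.univ) fun _ _ => Finset.mem_univ _]
      refine Finset.sum_congr rfl fun i _ => ?_
      rw [Finset.sum_mul]
      refine Finset.sum_congr rfl fun c hc => ?_
      obtain ⟨hc1, hc2⟩ := Finset.mem_filter.1 hc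
      rw [hval l c hc1, hc2, hd, mul_comm]

/-- The inertial quotient is non-trivial: one column. -/
theorem exists_signShape_one {t : G} (ht : t ∈ pairStab (⊤ : Subgroup G) P e0)
    (htC : t ∉ Subgroup.centralizer (P : Set G)) :
    Nonempty (SignShape 2 M B 1) := by
  classical
  haveI : Fact (Nat.Prime 2) := ⟨Nat.prime_two⟩
  haveI := Fintype.ofFinite (IrrCharacter G)
  have hb := isBlockIdem_redElem_blockCoeff (M := M) hB
  obtain ⟨v0, hv0, hv01⟩ : ∃ v ∈ P, v ≠ 1 := by
    by_contra h
    push Not at h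
    have : P = ⊥ := (Subgroup.eq_bot_iff_forall P).2 h
    rw [this, Subgroup.card_bot] at h4
    omega
  -- the stabiliser is transitive on the non-trivial elements
  have hfix : ∀ u ∈ P, u ≠ 1 → t * u * t⁻¹ ≠ u := fun u hu hu1 h =>
    htC (free_of_order_four hM hB hmax h4 hab ht hu hu1 h)
  have hfix2 : ∀ u ∈ P, u ≠ 1 → t * (t * u * t⁻¹) * t⁻¹ ≠ u := fun u hu hu1 h =>
    htC (mem_centralizer_of_sq hM hB hmax rfl hab ht
      (free_of_order_four hM hB hmax h4 hab (mul_mem ht ht) hu hu1
        ((show t * t * u * (t * t)⁻¹ = t * (t * u * t⁻¹) * t⁻¹ by group).trans h)))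
  have htN := (mem_pairStab.1 ht).2.1
  have htP : ∀ u ∈ P, t * u * t⁻¹ ∈ P := fun u hu => (Subgroup.mem_normalizer_iff.1 htN u).1 hu
  have htrans : ∀ v ∈ P, v ≠ 1 →
      ∃ r ∈ pairStab (⊤ : Subgroup G) P e0, r * v0 * r⁻¹ = v := by
    intro v hv hv1
    set a : P := ⟨v0, hv0⟩
    set a' : P := ⟨_, htP v0 hv0⟩
    set a'' : P := ⟨_, htP _ (htP v0 hv0)⟩
    have h1 : a' ≠ 1 := fun e => hv01 (by
      have e' : t * v0 * t⁻¹ = 1 := congrArg Subtype.val e
      calc v0 = t⁻¹ * (t * v0 * t⁻¹) * t := by group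
        _ = 1 := by rw [e']; group)
    have h2 : a'' ≠ 1 := fun e => h1 (Subtype.ext (by
      have e' : t * (t * v0 * t⁻¹) * t⁻¹ = 1 := congrArg Subtype.val e
      show t * v0 * t⁻¹ = 1
      calc t * v0 * t⁻¹ = t⁻¹ * (t * (t * v0 * t⁻¹) * t⁻¹) * t := by group
        _ = 1 := by rw [e']; group))
    have n1 : a ≠ a' := fun e => hfix v0 hv0 hv01 (congrArg Subtype.val e).symm
    have n2 : a ≠ a'' := fun e => hfix2 v0 hv0 hv01 (congrArg Subtype.val e).symm
    have n3 : a' ≠ a'' := fun e =>
      hfix _ (htP v0 hv0) (fun h => h1 (Subtype.ext h)) (congrArg Subtype.val e).symm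
    haveI := Fintype.ofFinite P
    have hS : ({1, a, a', a''} : Finset P) = Finset.univ := Finset.eq_univ_of_card _ (by
      have h0 : (1 : P) ≠ a := fun e => hv01 (congrArg Subtype.val e).symm
      rw [Finset.card_insert_of_notMem (by simp [h0, h1.symm, h2.symm]),
        Finset.card_insert_of_notMem (by simp [n1, n2]),
        Finset.card_insert_of_notMem (by simp [n3]), Finset.card_singleton,
        ← Nat.card_eq_fintype_card, h4])
    have := hS ▸ Finset.mem_univ (⟨v, hv⟩ : P)
    simp only [Finset.mem_insert, Finset.mem_singleton] at this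
    rcases this with h | h | h | h
    · exact absurd (congrArg Subtype.val h) hv1
    · exact ⟨1, one_mem _, by simpa using (congrArg Subtype.val h).symm⟩
    · exact ⟨t, ht, (congrArg Subtype.val h).symm⟩
    · refine ⟨t * t, mul_mem ht ht, ?_⟩
      have h' : v = t * (t * v0 * t⁻¹) * t⁻¹ := congrArg Subtype.val h
      rw [h']; group
  haveI : Fintype (Subgroup.centralizer ({v0} : Set G)) := Fintype.ofFinite _
  obtain ⟨hbl, -, hind⟩ := belowBlock_spec hM hB hmax hv0
  set b := belowBlock (M := M) 2 P e0 v0 with hbdef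
  obtain ⟨ξ₀, hξ₀⟩ := Blocks.isPBlock_nonempty hbl
  set φ : Subgroup.centralizer ({v0} : Set G) → ℂ := ξ₀.1
  have hord : ∃ k : ℕ, orderOf v0 = 2 ^ k := isPElem_of_mem hM hB hmax hv0
  -- the signs
  have hlam : ∀ ξ : IrrCharacter (Subgroup.centralizer ({v0} : Set G)),
      centralVal (ξ : Subgroup.centralizer ({v0} : Set G) → ℂ) (cenElem v0) = 1 ∨
      centralVal (ξ : Subgroup.centralizer ({v0} : Set G) → ℂ) (cenElem v0) = -1 := by
    intro ξ
    obtain ⟨hpow, -⟩ := centralVal_spec ξ (commute_cenElem v0)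
    have ho : orderOf (cenElem v0) = 2 := by
      rw [← Subgroup.orderOf_coe]
      exact orderOf_eq_prime (by rw [pow_two]; exact hexp v0 hv0) hv01
    rw [ho, pow_two] at hpow
    exact mul_self_eq_one_iff.1 hpow
  let d : IrrCharacter G → ℤ := fun χ => ∑ ξ ∈ blockFinset b,
    (subMult (Subgroup.centralizer ({v0} : Set G)) χ ξ) *
      if centralVal (ξ : Subgroup.centralizer ({v0} : Set G) → ℂ) (cenElem v0) = 1 then 1 else -1
  have hdC : ∀ χ, (d χ : ℂ) = ∑ ξ ∈ blockFinset b,
      (subMult (Subgroup.centralizer ({v0} : Set G)) χ ξ : ℂ) *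
        centralVal (ξ : Subgroup.centralizer ({v0} : Set G) → ℂ) (cenElem v0) := by
    intro χ
    simp only [d, Int.cast_sum, Int.cast_mul]
    refine Finset.sum_congr rfl fun ξ _ => ?_
    rcases hlam ξ with h | h <;> rw [h] <;> norm_num
  have hlv : ∀ χ, ∀ s : Subgroup.centralizer ({v0} : Set G), ¬ 2 ∣ orderOf s →
      val χ (v0 * (s : G)) (subIdem M _ b) = (d χ : ℂ) * φ s := fun χ s hs => by
    rw [hdC]; exact local_val hM hB hmax h4 hab hv0 hv01 hξ₀ χ s hs
  -- the factor at a pair
  let Q : G → MonoidAlgebra (Res M) G → Subgroup.centralizer ({v0} : Set G) → Prop :=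
    fun g c s => ∃ x : G, x * g * x⁻¹ = v0 * (s : G) ∧ ¬ 2 ∣ orderOf s ∧
      conjA x c = subIdem M _ b
  let F : G → MonoidAlgebra (Res M) G → ℂ := fun g c => if h : ∃ s, Q g c s then φ h.choose else 0
  have hFval : ∀ χ ∈ B, ∀ g : G, 2 ∣ orderOf g → ∀ c ∈ blocksAt M (ppart 2 g),
      val χ g c = (d χ : ℂ) * F g c := by
    intro χ hχ g hg c hc
    have hcb := mem_blockIdems.1 hc
    by_cases h : ∃ s, Q g c s
    · simp only [F, dif_pos h]
      obtain ⟨x, hxg, hs, hxc⟩ := h.choose_spec
      rw [← val_conj χ x hcb.mul_self (commute_block hcb 0).1, hxg, hxc, hlv χ _ hs]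
    · simp only [F, dif_neg h, mul_zero]
      refine val_eq_zero_of_not_pairOf hM hB hχ hcb fun hp => h ?_
      obtain ⟨x, v, s, hv, hv1, hs, hxg, hxc, -⟩ := exists_section hM hB hmax hg hc hp
      obtain ⟨r, hr, hrv⟩ := htrans v hv hv1
      obtain ⟨-, hrb⟩ := conjA_belowBlock hM hB hmax hv0 hr
      rw [hrv] at hrb
      have hmem : r⁻¹ * (s : G) * r ∈ Subgroup.centralizer ({v0} : Set G) := by
        refine Subgroup.mem_centralizer_singleton_iff.2 ?_
        have hsv := Subgroup.mem_centralizer_singleton_iff.1 s.2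
        calc r⁻¹ * (s : G) * r * v0 = r⁻¹ * ((s : G) * (r * v0 * r⁻¹)) * r := by group
          _ = r⁻¹ * ((s : G) * v) * r := by rw [hrv]
          _ = r⁻¹ * (v * (s : G)) * r := by rw [hsv]
          _ = r⁻¹ * (r * v0 * r⁻¹ * (s : G)) * r := by rw [hrv]
          _ = v0 * (r⁻¹ * (s : G) * r) := by group
      refine ⟨⟨_, hmem⟩, r⁻¹ * x, ?_, ?_, ?_⟩
      · show r⁻¹ * x * g * (r⁻¹ * x)⁻¹ = v0 * (r⁻¹ * (s : G) * r)
        calc r⁻¹ * x * g * (r⁻¹ * x)⁻¹ = r⁻¹ * (x * g * x⁻¹) * r := by group
          _ = r⁻¹ * (r * v0 * r⁻¹ * (s : G)) * r := by rw [hxg, hrv]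
          _ = _ := by group
      · rw [← Subgroup.orderOf_coe]
        show ¬ 2 ∣ orderOf (r⁻¹ * (s : G) * r)
        rw [show r⁻¹ * (s : G) * r = r⁻¹ * (s : G) * r⁻¹⁻¹ by rw [inv_inv], ← MulAut.conj_apply,
          MulEquiv.orderOf_eq, Subgroup.orderOf_coe]
        exact hs
      · rw [conjA_mul, hxc, ← hrb, conjA_inv_conjA]
  let W : G → ℂ := fun g => ∑ c ∈ blocksAt M (ppart 2 g), F g c
  have hW : ∀ χ ∈ B, ∀ g : G, 2 ∣ orderOf g → (χ : G → ℂ) g = (d χ : ℂ) * W g := by
    intro χ hχ g hg
    rw [apply_eq_sum_val (M := M) (p := 2) χ g, Finset.mul_sum]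
    exact Finset.sum_congr rfl fun c hc => hFval χ hχ g hg c hc
  -- no character of the block vanishes on all singular elements
  have hD := (isDefectGroup_iff hM hB).2 (hmax.isDefectIn hb)
  have hdef : blockDefect 2 B = 2 := by
    have := Blocks.card_isDefectGroup hM hB hD
    rw [h4] at this
    exact Nat.pow_right_injective le_rfl (this.symm.trans (by norm_num))
  have hnv : ∀ χ ∈ B, ∃ g : G, 2 ∣ orderOf g ∧ (χ : G → ℂ) g ≠ 0 := by
    intro χ hχ
    by_contra h
    push Not at h
    have hf := Blocks.factorization_charDegree_eq_of_vanish (p := 2) χ fun g hg => h g (by rw [hg])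
    have h1 := BrauerCharacters.defect_add_degree (p := 2) hχ
    rw [hdef, hf] at h1
    have h2 : blockHeight 2 B (χ : G → ℂ) = 2 := by omega
    have := BrauerCharacters.height_add_two_le (BrauerCharacters.weakOrth hM hB) hM hB hχ
      (by omega : 0 < blockHeight 2 B (χ : G → ℂ))
    omega
  have hd0 : ∀ χ ∈ B, d χ ≠ 0 := by
    intro χ hχ h0
    obtain ⟨g, hg, hne⟩ := hnv χ hχ
    rw [hW χ hχ g hg, h0, Int.cast_zero, zero_mul] at hne
    exact hne rfl
  have hk : Nat.card B = 4 := card_block_eq_four hM hB hD h4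
  have hScard : (blockFinset B).card = 4 := by rw [BrauerCharacters.card_blockFinset, hk]
  -- the squares of the signs
  have hsum4 : ∑ χ ∈ blockFinset B, d χ * d χ = 4 := by
    have hrank := (local_card hM hB hmax h4 hab hv0 hv01).2
    have hbcard := (local_card hM hB hmax h4 hab hv0 hv01).1
    rw [← hbdef] at hrank hbcard
    have hreg : ∀ ξ ∈ blockFinset b, BrauerCharacters.regInner 2
        (ξ : Subgroup.centralizer ({v0} : Set G) → ℂ) (ξ : Subgroup.centralizer ({v0} : Set G) → ℂ) =
        BrauerCharacters.regInner 2 φ φ := by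
      intro ξ hξ
      simp only [BrauerCharacters.regInner, classInner, BrauerCharacters.pRegularPart_apply]
      congr 1
      refine Finset.sum_congr rfl fun s _ => ?_
      split_ifs with hs
      · simp
      · rw [local_regular_eq hM hB hmax h4 hab hv0 hv01 hξ₀ (mem_blockFinset.1 hξ) hs]
    have hnorm : 4 * BrauerCharacters.regInner 2 φ φ = 1 := by
      have h := BrauerCharacters.sum_regInner_self_eq_blockRank (B := b)
        (BrauerCharacters.weakOrth (p := 2) hM hbl)
      rw [Finset.sum_congr rfl hreg, Finset.sum_const, BrauerCharacters.card_blockFinset, hbcard,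
        hrank, nsmul_eq_mul] at h
      simpa using h
    have hcon : ∀ χ : IrrCharacter G, BrauerCharacters.contrib v0 b 2 χ χ =
        ((d χ * d χ : ℤ) : ℂ) * BrauerCharacters.regInner 2 φ φ := by
      intro χ
      have hsp : ∀ s, ¬ 2 ∣ orderOf s →
          BrauerCharacters.secPart v0 b χ s = (d χ : ℂ) * φ s := fun s hs => by
        rw [← hlv χ s hs, show v0 * (s : G) =
          ((cenElem v0 * s : Subgroup.centralizer ({v0} : Set G)) : G) from rfl, val_subIdem χ _ hbl]
        rfl
      simp only [BrauerCharacters.contrib, BrauerCharacters.regInner, classInner,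
        BrauerCharacters.pRegularPart_apply, Finset.mul_sum]
      refine Finset.sum_congr rfl fun s _ => ?_
      by_cases hs : 2 ∣ orderOf s
      · simp [hs]
      · simp only [if_neg hs, hsp s hs, map_mul, map_intCast, Int.cast_mul]
        ring
    have htot := BlockSections.sum_contrib_self v0 hM hord hbl
    rw [hrank, ← Finset.sum_subset (Finset.subset_univ (blockFinset B)) (fun χ _ hχ =>
      BlockSections.contrib_eq_zero_of_notMem v0 hM hord hind (fun h => hχ (mem_blockFinset.2 h)) χ),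
      Finset.sum_congr rfl fun χ _ => hcon χ, ← Finset.sum_mul, ← Int.cast_sum] at htot
    apply Int.cast_injective (α := ℂ)
    set T : ℂ := ((∑ χ ∈ blockFinset B, d χ * d χ : ℤ) : ℂ)
    have : T = 4 := by
      have h1 : T * BrauerCharacters.regInner 2 φ φ = 1 := by simpa using htot
      calc T = T * (4 * BrauerCharacters.regInner 2 φ φ) := by rw [hnorm, mul_one]
        _ = 4 * (T * BrauerCharacters.regInner 2 φ φ) := by ring
        _ = 4 := by rw [h1, mul_one]
    rw [this]; norm_num
  have hsign := sum_int_eq_one hScard (fun χ hχ => hd0 χ (mem_blockFinset.1 hχ)) hsum4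
  refine ⟨{
    S := blockFinset B
    eq_set := Set.ext fun χ => by rw [Finset.mem_coe, mem_blockFinset]
    card_eq := hScard
    d := fun χ _ => d χ
    sign := fun χ hχ _ => hsign χ hχ
    orth := fun i j hij => absurd (Subsingleton.elim i j) hij
    rel := fun g hg i => ?_
    value := fun g hg => ⟨fun _ => W g, fun _ => ?_, fun _ => ?_, fun χ hχ => ?_⟩ }⟩
  · obtain ⟨χ₁, hχ₁⟩ := Blocks.isPBlock_nonempty hB
    obtain ⟨y, hy, hne⟩ := hnv χ₁ hχ₁
    have hWy : W y ≠ 0 := fun h => hne (by rw [hW χ₁ hχ₁ y hy, h, mul_zero])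
    have h0 := BrauerCharacters.weakOrth hM hB g y hg hy
    rw [BrauerCharacters.finsum_mem_eq_sum_blockFinset,
      Finset.sum_congr rfl (g := fun χ : IrrCharacter G =>
        conj (W y) * ((d χ : ℂ) * (χ : G → ℂ) g))
        fun χ hχ => by rw [hW χ (mem_blockFinset.1 hχ) y hy, map_mul, map_intCast]; ring,
      ← Finset.mul_sum] at h0
    exact (mul_eq_zero.1 h0).resolve_left fun h =>
      hWy ((map_eq_zero_iff _ (starRingEnd ℂ).injective).1 h)
  · refine memLocalRing_sum fun c _ => ?_
    simp only [F]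
    split_ifs
    · exact memLocalRing_of_isIntegral
        (CharTheory.IsCharacter.isIntegral (CharTheory.IsIrrCharacter.isCharacter ξ₀.2) _)
    · exact zero_mem (locRing M)
  · simp only [W, Finset.mul_sum, Finset.sum_div]
    refine memLocalRing_sum fun c _ => ?_
    simp only [F]
    split_ifs with h
    · obtain ⟨x, hxg, hs, -⟩ := h.choose_spec
      rw [card_centralizer_of_conj hxg]
      exact local_regular_div hM hB hmax h4 hab hv0 hv01 hξ₀ hs
    · rw [mul_zero, zero_div]; exact zero_mem (locRing M)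
  · rw [Fin.sum_univ_one, hW χ (mem_blockFinset.1 hχ) g hg, mul_comm]

end CfsgLib.Frobenius.CycShape
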